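/-
A commutation relation between two elements of order 3.
-/
import Cfsg.Agent.PM.SE

set_option autoImplicit false

namespace CA.PM

open CA.Fi CA.Loc Subgroup

variable {G : Type*} [Group G]

/-- the elements centralizing or inverting `y` -/
def Npm (y : G) : Subgroup G where
  carrier := {g | g * y * g⁻¹ = y ∨ g * y * g⁻¹ = y⁻¹}
  one_mem' := Or.inl (by simp)
  mul_mem' := by
    rintro a b ha hb
    have e : a * b * y * (a * b)⁻¹ = a * (b * y * b⁻¹) * a⁻¹ := by group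
    have e2 : a * y⁻¹ * a⁻¹ = (a * y * a⁻¹)⁻¹ := by group
    show _ ∨ _
    rw [e]
    rcases hb with hb | hb <;> rw [hb]
    · exact ha
    · rw [e2]; exact ha.symm.imp (fun h => by rw [h, inv_inv]) fun h => by rw [h]
  inv_mem' := by
    rintro a (h | h)
    · left; rw [inv_inv, mul_assoc, inv_mul_eq_iff_eq_mul, ← mul_inv_eq_iff_eq_mul.1 h]
    · right
      calc a⁻¹ * y * a⁻¹⁻¹ = a⁻¹ * (a * y * a⁻¹)⁻¹ * a := by rw [h]; group
        _ = y⁻¹ := by group

theorem Npm_of_comm {g y : G} (h : Commute g y) : g ∈ Npm y := Or.inl (conj_eq_iff_commute.2 h)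

theorem Npm_of_inv {g y : G} (h : g * y * g⁻¹ = y⁻¹) : g ∈ Npm y := Or.inr h

theorem Npm_comm [Finite G] {g y : G} (h : g ∈ Npm y) (ho : Odd (orderOf g)) : Commute g y := by
  refine mem_cent_iff.1 (mem_of_sq_mem ho (mem_cent_iff.2 (conj_eq_iff_commute.1 ?_)))
  have e : g * g * y * (g * g)⁻¹ = g * (g * y * g⁻¹) * g⁻¹ := by group
  have e2 : g * y⁻¹ * g⁻¹ = (g * y * g⁻¹)⁻¹ := by group
  rw [e]
  rcases h with h | h
  · rw [h, h]
  · rw [h, e2, h, inv_inv]

theorem odd_of_cube {g : G} (h : g ^ 3 = 1) : Odd (orderOf g) :=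
  Odd.of_dvd_nat (by decide : Odd 3) (orderOf_dvd_of_pow_eq_one h)

theorem Npm_split [Finite G] {y y' h u : G} {j : ℕ} (h3 : y' ^ 3 = 1) (hh : h ∈ Npm y) (hu : u ∈ Npm y)
    (e : h = u * y' ^ j) : Commute y' y ∨ h = u := by
  have m : y' ^ j ∈ Npm y := by simpa [e] using mul_mem (inv_mem hu) hh
  have c := Npm_comm m (odd_of_cube (by rw [← pow_mul, mul_comm, pow_mul, h3, one_pow]))
  rw [pow_eq_pow_mod j h3] at c e
  have : j % 3 < 3 := Nat.mod_lt _ (by decide)
  generalize j % 3 = i at *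
  interval_cases i
  · right; simpa using e
  · left; simpa using c
  · left
    have := c.pow_left 2
    rwa [← pow_mul, show 2 * 2 = 3 + 1 from rfl, pow_succ, h3, one_mul] at this

theorem lemJ [Finite G] {z x y ρ v τ : G} (hH : ¬ 3 ^ 3 ∣ Nat.card (centralizer ({z} : Set G)))
    (z2 : z * z = 1) (v2 : v * v = 1) (z1 : z ≠ 1) (vz : Commute v z) (vne : v ≠ z)
    (ox : orderOf x = 3) (oy : orderOf y = 3) (oρ : orderOf ρ = 3) (xy : Commute x y) (yx : y ∉ zpowers x)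
    (xz : Commute x z) (yz : Commute y z) (vx : Commute v x) (vy : v * y * v⁻¹ = y⁻¹) (ρx : Commute ρ x)
    (r1 : ρ⁻¹ * z * ρ = v) (r2 : ρ⁻¹ * v * ρ = v * z) (t1 : τ * x * τ⁻¹ = ρ) (t2 : τ * ρ * τ⁻¹ = x⁻¹)
    (hF : ∀ h, h * h = 1 → Commute h z → Commute h x → h = 1 ∨ h = z ∨ ∃ j : ℕ, h = v * y ^ j ∨ h = v * z * y ^ j)
    (hG : ∀ h, Commute h z → (∀ a ∈ zpowers x ⊔ zpowers y, ∀ b ∈ zpowers x ⊔ zpowers y, Commute (h * a * h⁻¹) b) →
      Commute (h * h) x) : Commute (ρ⁻¹ * y * ρ) y := by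
  have y3 : y ^ 3 = 1 := oy ▸ pow_orderOf_eq_one y
  have ρ3 : ρ ^ 3 = 1 := oρ ▸ pow_orderOf_eq_one ρ
  have ni : ∀ {a : G}, orderOf a = 3 → a ≠ a⁻¹ := fun {a} h e => by
    have := orderOf_dvd_of_pow_eq_one (show a ^ 2 = 1 by rw [pow_two]; nth_rw 2 [e]; simp)
    rw [h] at this; omega
  have nv : ∀ {u : G} (j : ℕ), u * y * u⁻¹ = y⁻¹ → ¬ Commute (u * y ^ j) y := fun {u} j h c => by
    have := (c.mul_left ((Commute.refl y).pow_left j).inv_left)
    rw [mul_inv_cancel_right] at this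
    exact ni oy (by rw [← h, conj_eq_iff_commute.2 this])
  have vzy : v * z * y * (v * z)⁻¹ = y⁻¹ := by
    rw [← vy, mul_assoc v z, ← yz.eq]; group
  have uz : ∀ h, h * h = 1 → Commute h z → Commute h x → Commute h y → h = 1 ∨ h = z := fun h a b c d => by
    rcases hF h a b c with e | e | ⟨j, e | e⟩
    exacts [Or.inl e, Or.inr e, absurd (e ▸ d) (nv j vy), absurd (e ▸ d) (nv j vzy)]
  by_cases hA : ∀ c, Commute c x → Commute c y → Commute c z
  · exfalso
    set E := zpowers x ⊔ zpowers y with hE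
    have mx : x ∈ E := mem_sup_left (mem_zpowers x)
    have my : y ∈ E := mem_sup_right (mem_zpowers y)
    have cE : ∀ c, c ∈ centralizer (E : Set G) ↔ Commute c x ∧ Commute c y := fun c => by
      rw [cent_sup2, mem_inf, mem_cent_iff, mem_cent_iff]
    have ab : ∀ a ∈ E, ∀ b ∈ E, Commute a b := fun a ha b hb => mem_cent_subgroup_iff.1
      (sup_le (zpowers_le.2 ((cE x).2 ⟨Commute.refl x, xy⟩)) (zpowers_le.2 ((cE y).2 ⟨xy.symm, Commute.refl y⟩)) ha) b hb
    have hN : normalizer (E : Set G) ≤ centralizer {z} := fun g hg => by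
      have k : ∀ a ∈ E, Commute (g * z * g⁻¹) a := fun a ha => commute_conj_left_iff.2
        (mem_cent_subgroup_iff.1 ((cE z).2 ⟨xz.symm, yz.symm⟩) _ (by
          simpa using (mem_normalizer_iff.1 (inv_mem hg) a).1 ha))
      rcases uz (g * z * g⁻¹) (by calc _ = g * (z * z) * g⁻¹ := by group
        _ = 1 := by rw [z2]; group) (hA _ (k x mx) (k y my)) (k x mx) (k y my) with e | e
      · exact absurd (by simpa using e) z1
      · exact mem_cent_iff.2 (conj_eq_iff_commute.1 e)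
    have c9 : Nat.card E = 3 ^ 2 := card_sup_zpowers2 ox oy Nat.prime_three xy yx
    haveI : Fact (Nat.Prime 3) := ⟨Nat.prime_three⟩
    have hG3 : ¬ 3 ^ (2 + 1) ∣ Nat.card G := fun h =>
      hH ((Sylow.prime_pow_dvd_card_normalizer h c9).trans (card_dvd_of_le hN))
    have ρn : ρ ∉ zpowers x := fun h => vne (by
      have : Commute ρ z := mem_cent_iff.1 (zpowers_le.2 (mem_cent_iff.2 xz) h)
      rw [← r1, mul_assoc, ← this.eq]; group)
    set R := zpowers x ⊔ zpowers ρ with hR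
    obtain ⟨g, hg⟩ := conj_of_card Nat.prime_three hG3 R E (card_sup_zpowers2 ox oρ Nat.prime_three ρx.symm ρn) c9
    have τn : τ ∈ normalizer (R : Set G) := mem_norm2 (a := 0) (b := 1) (c := 2) (d := 0) (by simp [t1])
      (by rw [t2, pow_zero, mul_one, inv_eq_iff_mul_eq_one, ← pow_succ']; exact (ox ▸ pow_orderOf_eq_one x : x ^ 3 = 1))
    have inv : ∀ r ∈ R, τ * τ * r * (τ * τ)⁻¹ = r⁻¹ := fun r hr => by
      obtain ⟨i, j, -, -, rfl⟩ := mem_sup_zpowers2 ox oρ (by decide) ρx.symm hr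
      have e1 : τ * τ * x * (τ * τ)⁻¹ = x⁻¹ := by rw [← t2, ← t1]; group
      have e2 : τ * τ * ρ * (τ * τ)⁻¹ = ρ⁻¹ := by
        calc _ = τ * (τ * ρ * τ⁻¹) * τ⁻¹ := by group
          _ = (τ * x * τ⁻¹)⁻¹ := by rw [t2]; group
          _ = _ := by rw [t1]
      calc _ = (τ * τ * x * (τ * τ)⁻¹) ^ i * (τ * τ * ρ * (τ * τ)⁻¹) ^ j := by rw [conj_pow, conj_pow]; group
        _ = _ := by rw [e1, e2, (ρx.symm.pow_pow i j).eq, mul_inv_rev, inv_pow, inv_pow]
    have hn : g * τ * g⁻¹ ∈ normalizer (E : Set G) := mem_norm_of_conj_mem fun a ha => by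
      rw [← hg] at ha ⊢
      obtain ⟨r, hr, rfl⟩ := ha
      exact ⟨τ * r * τ⁻¹, (mem_normalizer_iff.1 τn r).1 hr, by simp [mul_assoc]⟩
    have c := hG _ (mem_cent_iff.1 (hN hn)) fun a ha b hb => ab _ ((mem_normalizer_iff.1 hn a).1 ha) b hb
    rw [← hg] at mx
    obtain ⟨r, hr, e⟩ := mx
    have e' : g * r * g⁻¹ = x := e
    refine ni ox ?_
    calc x = g * τ * g⁻¹ * (g * τ * g⁻¹) * x * (g * τ * g⁻¹ * (g * τ * g⁻¹))⁻¹ := (conj_eq_iff_commute.2 c).symm
      _ = g * (τ * τ * r * (τ * τ)⁻¹) * g⁻¹ := by rw [← e']; group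
      _ = x⁻¹ := by rw [inv r hr, ← e']; group
  · push Not at hA
    obtain ⟨c, cx, cy, cz⟩ := hA
    set w := c * z * c⁻¹ with hw
    have w2 : w * w = 1 := by calc _ = c * (z * z) * c⁻¹ := by rw [hw]; group
      _ = 1 := by rw [z2]; group
    have w1 : w ≠ 1 := by simpa [hw] using z1
    have wz : w ≠ z := fun e => cz (conj_eq_iff_commute.1 e)
    have wx : Commute w x := (cx.mul_left xz.symm).mul_left cx.inv_left
    have wy : Commute w y := (cy.mul_left yz.symm).mul_left cy.inv_left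
    have F : ∀ r, Commute r x → ∀ h, h * h = 1 → Commute h (r⁻¹ * z * r) → Commute h x → h = 1 ∨ h = r⁻¹ * z * r ∨
        ∃ j : ℕ, h = r⁻¹ * v * r * (r⁻¹ * y * r) ^ j ∨ h = r⁻¹ * (v * z) * r * (r⁻¹ * y * r) ^ j := fun r hr h a b d => by
      have k : ∀ {u : G}, r * h * r⁻¹ = u → h = r⁻¹ * u * r := fun e => by rw [← e]; group
      have p : ∀ (u : G) (j : ℕ), r⁻¹ * (u * y ^ j) * r = r⁻¹ * u * r * (r⁻¹ * y * r) ^ j := fun u j => by
        rw [show r⁻¹ * y * r = r⁻¹ * y * r⁻¹⁻¹ by simp, conj_pow]; group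
      rcases hF (r * h * r⁻¹) (by calc _ = r * (h * h) * r⁻¹ := by group
        _ = 1 := by rw [a]; group) (commute_conj_left_iff.2 b) ((hr.mul_left d).mul_left hr.inv_left)
        with e | e | ⟨j, e | e⟩
      exacts [Or.inl (by simpa using e), Or.inr (Or.inl (k e)), Or.inr (Or.inr ⟨j, Or.inl (p _ j ▸ k e)⟩),
        Or.inr (Or.inr ⟨j, Or.inr (p _ j ▸ k e)⟩)]
    have c3 : ∀ r : G, (r⁻¹ * y * r) ^ 3 = 1 := fun r => by
      rw [show r⁻¹ * y * r = r⁻¹ * y * r⁻¹⁻¹ by simp, conj_pow, y3]; group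
    have r3 : ρ⁻¹ * (v * z) * ρ = z := by
      calc _ = ρ⁻¹ * v * ρ * (ρ⁻¹ * z * ρ) := by group
        _ = z := by rw [r1, r2, mul_assoc, ← vz.eq, ← mul_assoc, v2, one_mul]
    have nw := Npm_of_comm wy
    have nz := Npm_of_comm yz.symm
    have nv' := Npm_of_inv vy
    have ev : Even (orderOf (w * v)) := by
      by_contra h
      have := Npm_comm (mul_mem nw nv') (Nat.not_even_iff_odd.1 h)
      exact nv 0 vy (by simpa using wy.inv_left.mul_left this)
    obtain ⟨k, k1, k2⟩ := dih_exists_of_even ev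
    obtain ⟨d1, d2⟩ := dih_commute w2 v2 k1
    have nk : (w * v) ^ k ∈ Npm y := pow_mem (mul_mem nw nv') k
    have fin : (w * v) ^ k = z ∨ (w * v) ^ k = v * z → Commute (ρ⁻¹ * y * ρ) y := by
      rintro (e | e) <;> rw [e] at d1
      · exact ((uz w w2 d1 wx wy).elim w1 wz).elim
      · have q : ∀ u : G, (ρ * ρ)⁻¹ * u * (ρ * ρ) = ρ⁻¹ * (ρ⁻¹ * u * ρ) * ρ := fun u => by group
        have fin2 : Commute ((ρ * ρ)⁻¹ * y * (ρ * ρ)) y → Commute (ρ⁻¹ * y * ρ) y := fun h => by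
          have e3 : ρ * ρ = ρ⁻¹ := by rw [eq_inv_iff_mul_eq_one, ← pow_three', ρ3]
          rw [e3, inv_inv, commute_conj_left_iff] at h
          exact h.symm
        rcases F (ρ * ρ) (ρx.mul_left ρx) w w2 (by rw [q, r1, r2]; exact d1) wx with e | e | ⟨j, e | e⟩
        · exact absurd e w1
        · rw [q, r1, r2] at e; exact absurd (by simpa [← e] using wy) (nv 0 vzy)
        · rw [q, r2, r3] at e
          exact (Npm_split (c3 _) nw nz e).elim fin2 (absurd · wz)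
        · rw [q, r3, r1] at e
          exact (Npm_split (c3 _) nw nv' e).elim fin2 fun e => absurd (by simpa [← e] using wy) (nv 0 vy)
    rcases F ρ ρx _ k1 (by rw [r1]; exact d2.symm) ((wx.mul_left vx).pow_left k) with e | e | ⟨j, e | e⟩
    · exact absurd e k2
    · exfalso
      rw [r1] at e
      have c1 : Commute w v := e ▸ d1
      have s : (w * v) ^ 2 = 1 := by rw [c1.mul_pow, pow_two, pow_two, w2, v2, mul_one]
      rw [pow_eq_pow_mod k s] at e k2
      rcases Nat.mod_two_eq_zero_or_one k with h | h <;> rw [h] at e k2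
      · exact k2 (pow_zero _)
      · exact w1 (by simpa using e)
    · rw [r2] at e
      exact (Npm_split (c3 _) nk (mul_mem nv' nz) e).elim id fun e => fin (Or.inr e)
    · rw [r3] at e
      exact (Npm_split (c3 _) nk nz e).elim id fun e => fin (Or.inl e)

end CA.PM

theorem CA.PM.realizeEqnsJ : True := by
  have := @CA.PM.Npm.eq_1.{0}
  have := @CA.PM.Npm.eq_def.{0}
  have := @CA.PM.Npm.congr_simp.{0}
  trivial
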