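/-
A model of the Hall-Janko group.
-/
import Cfsg.Agent.PM.HJ1
import Cfsg.Agent.Typ.C4

set_option autoImplicit false
set_option maxRecDepth 100000

namespace CA.PM.HJ

open CA.TC CA.PM CA.Fi CA.Typ Subgroup Cfsg

noncomputable section

theorem tbl : Tb ALL 315 act := Tb.of_chk (by decide) tbc

/-- the group -/
abbrev X : Type := Subgroup.closure (Set.range tbl.perm)

/-- the letters -/
def γ (g : ℕ) : X := ⟨tbl.perm g, subset_closure ⟨g, rfl⟩⟩

theorem sqγ : Sq γ ALL := fun g hg => Subtype.ext (tbl.mod.sq g hg)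

theorem mod : Mod γ ALL 315 act := tbl.mod.comap sqγ (Subgroup.subtype _) fun _ _ => rfl

theorem hER : ∀ r ∈ ER, wd γ r = 1 := fun r hr => Subtype.ext ((wd_map (Subgroup.subtype _) γ r).symm.trans
  ((tbl.perm_eq_one (allL_spec (show allL ER (inS ALL) = true by decide +kernel) r hr)).2 fun p hp =>
    beq_iff.1 (allL_spec (relc p hp) r hr)))

theorem gp_top : gp γ ALL = ⊤ := eq_top_iff.2 fun ⟨x, hx⟩ h => by
  clear h
  induction hx using closure_induction with
  | mem x hx =>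
    obtain ⟨g, rfl⟩ := hx
    by_cases h : tb ALL g = true
    · exact mem_gp h
    · show γ g ∈ _
      rw [show γ g = 1 from Subtype.ext (dif_neg h)]
      exact one_mem _
  | one => exact one_mem _
  | mul _ _ _ _ a b => exact mul_mem a b
  | inv _ _ a => exact inv_mem a

theorem chain {Y : Type*} [Group Y] {a : ℕ → Y} (sq : Sq a ALL) (hE : ∀ r ∈ ER, wd a r = 1)
    (rb : ∀ S, sub S ALL = true → Rel a act S B → Rel γ act S B) :
    RM a ALL 315 act B ∧ Finite (gp a ALL) ∧ Nat.card (gp a ALL) ≤ 604800 := by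
  have step : ∀ {C : Cert} {Rs : List (ℕ × List ℕ)} {E : List (List ℕ)} {m : ℕ}, C.OK → Sep C ALL 315 act B →
      C.val = valS C.S act Rs E → (∀ r ∈ E, r ∈ ER) → (∀ r ∈ Rs, r.2 = B ∧ RM a r.1 315 act B ∧ sub r.1 ALL = true) →
      Rel a act C.S0 B → Finite (gp a C.S0) ∧ Nat.card (gp a C.S0) ≤ m →
      RM a C.S 315 act B ∧ Finite (gp a C.S) ∧ Nat.card (gp a C.S) ≤ C.n * m := fun h s hv e r h0 f => by
    haveI := f.1
    have ra := fun x hx => (r x hx).1 ▸ (r x hx).2.1.rel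
    have := h.card_le (sq.mono s.sub) (hv ▸ valS_spec (sq.mono s.sub) ra fun x hx => hE x (e x hx))
    exact ⟨RM.step h mod s hv (sq.mono s.sub) ra (fun x hx => (r x hx).1 ▸ rb _ (r x hx).2.2 (r x hx).2.1.rel)
      (fun x hx => hE x (e x hx)) (fun x hx => hER x (e x hx)) h0, this.1, this.2.trans (Nat.mul_le_mul_left _ f.2)⟩
  have r1 := step Z1_ok Z1_sep Z1_val (fun _ => id) (by simp) (Rel.zero _ _ _) card_gp_zero
  have r2 := step Z2_ok Z2_sep Z2_val (fun _ => id) (List.forall_mem_singleton.2 ⟨rfl, r1.1, by decide +kernel⟩)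
    r1.1.rel r1.2
  have r3 := step Z3_ok Z3_sep Z3_val (fun _ => id) (List.forall_mem_singleton.2 ⟨rfl, r1.1, by decide +kernel⟩)
    r1.1.rel r1.2
  exact step Z4_ok Z4_sep Z4_val (by decide +kernel) (List.forall_mem_cons.2 ⟨⟨rfl, r2.1, by decide +kernel⟩,
    List.forall_mem_singleton.2 ⟨rfl, r3.1, by decide +kernel⟩⟩) r2.1.rel r2.2

theorem rm : RM γ ALL 315 act B := (chain sqγ hER fun _ _ => id).1

theorem ltB : ∀ b ∈ B, b < 315 := rm.lt

theorem bm : BM γ ALL 315 act B := ⟨mod, rm.rel, ltB⟩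

theorem rmS {S : ℕ} (h : sub S ALL = true) : RM γ S 315 act B := rm.mono h

theorem wd1 (g : ℕ) : wd γ [g] = γ g := wd_one γ g

theorem H_comm {g : ℕ} (hg : tb SH g = true) : γ g ∈ centralizer ({γ 1} : Set X) := by
  have := rm.comm (allS_spec (by decide) (show allS SH (fun g => eqW act ALL B [[g], [1]] [[1], [g]]) = true by
    decide +kernel) hg)
  rw [wd1, wd1] at this
  exact mem_cent_iff.2 this

theorem card_HX : Nat.card (centralizer ({γ 1} : Set X)) = 1920 ∧ Nat.card X = 604800 := by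
  have h := mod.class_ge' ltB (sub_refl _) (z := [1]) (D := ⊤) (fun _ _ => mem_top _) inC enC
  have h2 := mod.le_card_en ltB (by decide +kernel) enH fun _ => H_comm
  have h3 := (chain sqγ hER fun _ _ => id).2.2
  rw [gp_top] at h3
  rw [wd1, top_inf_eq] at h
  rw [card_top] at h h3
  omega

theorem card_H : Nat.card (centralizer ({γ 1} : Set X)) = 1920 := card_HX.1

theorem card_X : Nat.card X = 604800 := card_HX.2

theorem enum_H {x : X} (hx : Commute x (γ 1)) : ∃ i < 1920, inS SH (WH i) = true ∧ wd γ (WH i) = x :=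
  mod.enum ltB (by decide +kernel) enH (fun _ => H_comm) card_H.le (mem_cent_iff.2 hx)

theorem mem_gp_H {x : X} (hx : Commute x (γ 1)) : x ∈ gp γ SH := by
  obtain ⟨i, -, h, rfl⟩ := enum_H hx
  exact wd_mem_gp h

theorem enum_C {x : X} (hx : IsConj (γ 1) x) : ∃ i < 315, wd γ (WC i ++ ([1] ++ rv (WC i))) = x := by
  have c := CA.Loc.card_eq_orbit ⊤ (γ 1)
  rw [top_inf_eq, card_top, card_H, card_X] at c
  obtain ⟨g, hg⟩ := isConj_iff.1 hx
  refine exists_of_ncard (s := {y | ∃ c ∈ (⊤ : Subgroup X), c * γ 1 * c⁻¹ = y}) (Set.toFinite _) (by omega) _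
    (fun i hi => ⟨wd γ (WC i), mem_top _, ?_⟩) (mod.wd_inj ltB (sub_refl _) enC).2 ⟨g, mem_top _, hg⟩
  simp only [wd_append, rv_eq, sqγ.rev (inC i hi), mul_assoc, wd1]

theorem enum_Q {x : X} (hx : x ∈ gp γ SQ) : ∃ i < 32, inS SQ (WQ i) = true ∧ wd γ (WQ i) = x :=
  (rmS (by decide +kernel)).rel.enum (rmS (by decide +kernel)).tbl (rmS (by decide +kernel)).sq ltB (by decide)
    (i0 := 8) (by decide) (by decide +kernel) clQ hx

theorem card_Q : Nat.card (gp γ SQ) = 32 :=
  le_antisymm (card_le_of_enum (F := fun i => wd γ (WQ i)) fun x hx => by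
    obtain ⟨i, h1, -, h2⟩ := enum_Q hx; exact ⟨i, h1, h2⟩).2
    (mod.le_card_en ltB (by decide +kernel) enQ fun _ => mem_gp)

theorem Q_le : gp γ SQ ≤ centralizer {γ 1} := gp_le fun g hg => H_comm (tb_sub (by decide +kernel) hg)

theorem hQ : rng (fun i => bor (anyS SQ fun q => neW act ALL B [[q], WH i] [WH i, [q]])
    (bor (eqW act ALL B [WH i] []) (eqW act ALL B [WH i] [[1]]))) 0 1920 5 = true := by decide +kernel

theorem cent_Q {x : X} (hz : Commute x (γ 1)) (hx : ∀ g, tb SQ g = true → Commute (γ g) x) : x = 1 ∨ x = γ 1 := by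
  obtain ⟨i, hi, -, rfl⟩ := enum_H hz
  rcases bor_iff.1 (rng_spec hQ i (Nat.zero_le _) hi) with h | h
  · obtain ⟨q, h1, h2⟩ := anyS_spec h
    exact absurd (wd1 q ▸ hx q h1) (bm.ncomm h2)
  · exact (bor_iff.1 h).imp rm.one fun h => (rm.eq1 h).trans (wd1 1)

theorem z_mem : γ 1 ∈ gp γ SQ := by
  rw [← wd1, rm.eq1 (v := [2, 3, 2, 3]) (by decide +kernel)]
  exact wd_mem_gp (by decide +kernel)

theorem ne1 {g : ℕ} (h : neW act ALL B [[g]] [[]] = true) : γ g ≠ 1 := wd1 g ▸ bm.ne1 h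

theorem es : ES (gp γ SQ) (γ 1) := by
  refine es_of_gens z_mem (ne1 (by decide +kernel)) (sqγ 1 (by decide +kernel))
    (fun g hg => mem_cent_iff.1 (Q_le (mem_gp hg))) (fun g hg k hk => ?_)
    (fun x hx => cent_Q (mem_cent_iff.1 (Q_le hx))) ⟨γ 2, mem_gp (by decide +kernel), ne1 (by decide +kernel), ?_⟩
  · have := allS_spec (by decide) (allS_spec (by decide) (show allS SQ (fun g => allS SQ fun k =>
      bor (eqW act ALL B [[g], [k]] [[k], [g]]) (eqW act ALL B [[g], [k]] [[k], [g], [1]])) = true by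
      decide +kernel) hg) hk
    exact (bor_iff.1 this).imp (fun h => by simpa using rm.comm h) fun h => by simpa [mul_assoc] using rm.eq h
  · simpa using bm.ne1 (u := [2]) (v := [1]) (by decide +kernel)

theorem norm_of {S T : ℕ} (hS : S < 65536) (hT : T < 65536) {c : ℕ → ℕ → List ℕ}
    (h : allS S (fun g => allS T fun q => band (eqW act ALL B [[g], [q]] [c g q, [g]]) (inS T (c g q))) = true)
    {g : ℕ} (hg : tb S g = true) : γ g ∈ normalizer (gp γ T : Set X) := conj_mem_gp fun q hq => by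
  have := band_iff.1 (allS_spec hT (allS_spec hS h hg) hq)
  have e := rm.conj this.1
  rw [wd1, wd1] at e
  exact e ▸ wd_mem_gp this.2

theorem le : LE (gp γ SQ) (γ 1) := ⟨es, fun c hc => by
    rcases cent_Q (hc _ z_mem) fun g hg => (hc _ (mem_gp hg)).symm with e | e <;> rw [e]
    exacts [one_mem _, z_mem],
  fun c hc x hx => (mem_normalizer_iff.1 (gp_le (K := normalizer (gp γ SQ : Set X))
    (fun g => norm_of (c := cq) (by decide) (by decide) (by decide +kernel)) (mem_gp_H hc)) x).1 hx⟩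

theorem g0_z : wd γ [3, 10] * γ 1 * (wd γ [3, 10])⁻¹ = γ 2 := by
  simpa using rm.conj (u := [3, 10]) (z := [1]) (y := [2]) (by decide +kernel)

theorem th : ∃ Qs, TH (gp γ SQ) Qs (γ 1) (γ 2) 32 60 := by
  have := TH_mk (g := wd γ [3, 10]) (N := 60) le card_Q (by decide) card_H
    (by rw [g0_z]; exact mem_gp (by decide +kernel))
    (by rw [g0_z]; simpa using bm.ne1 (u := [2]) (v := [1]) (by decide +kernel))
  rw [g0_z] at this
  exact ⟨_, this⟩

instance simple : IsSimpleGroup X := th.elim fun _ h => h.simple4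

theorem inj_of {Y : Type*} [Group Y] {φ : X →* Y} (h : φ (γ 1) ≠ 1) : Function.Injective φ := by
  rw [← MonoidHom.ker_eq_bot_iff]
  exact (φ.normal_ker.eq_bot_or_eq_top).resolve_right fun e => h (MonoidHom.mem_ker.1 (e ▸ mem_top _))

/-- the presentation -/
theorem pres {Y : Type*} [Group Y] {a : ℕ → Y} (sq : Sq a ALL) (hE : ∀ r ∈ ER, wd a r = 1) (top : gp a ALL = ⊤)
    (h1 : a 1 ≠ 1) : ∃ φ : X ≃* Y, ∀ w, inS ALL w = true → φ (wd γ w) = wd a w := by
  obtain ⟨φ, hφ⟩ := bm.exists_hom gp_top (chain sq hE fun _ h _ => rm.rel.mono h).1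
  refine ⟨MulEquiv.ofBijective φ ⟨inj_of (by rwa [← wd1, hφ _ (by decide +kernel), wd_one]), fun y => ?_⟩, hφ⟩
  obtain ⟨w, hw, rfl⟩ := sq.exists_wd (top ▸ mem_top y)
  exact ⟨_, hφ w hw⟩

/-- the second parabolic subgroup -/
abbrev P : Subgroup X := normalizer ((Subgroup.closure ({γ 1, γ 2} : Set X) : Subgroup X) : Set X)

theorem P_mem {g : ℕ} (hg : tb SP g = true) : γ g ∈ P := by
  have e : Subgroup.closure ({γ 1, γ 2} : Set X) = gp γ 6 := by
    unfold gp; congr 1; ext x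
    constructor
    · rintro (rfl | rfl)
      exacts [⟨1, by decide +kernel, rfl⟩, ⟨2, by decide +kernel, rfl⟩]
    · rintro ⟨g, hg, rfl⟩
      have := lt16 (by decide) hg
      have k : g = 1 ∨ g = 2 := by revert hg; revert g; decide +kernel
      rcases k with rfl | rfl <;> simp
  rw [P, e]
  exact norm_of (c := c1) (by decide) (by decide) (by decide +kernel) hg

theorem σ_H : wd γ [8, 9] ∈ centralizer ({γ 1} : Set X) := wd_mem (fun _ => H_comm) (by decide +kernel)

theorem σ_P : wd γ [8, 9] ∈ P := CA.Loc.mem_norm_closure (by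
  rintro _ (rfl | rfl)
  · rw [conj_eq_iff_commute.2 (mem_cent_iff.1 σ_H)]; exact subset_closure (by simp)
  · rw [conj_eq_iff_commute.2 (wd1 2 ▸ rm.comm (u := [8, 9]) (v := [2]) (by decide +kernel))]
    exact subset_closure (by simp))

theorem hC : rng (fun i => bor (neW act ALL B [WH i, WH i] []) (bor (eqW act SH B [WH i] [])
    (band (anyL [1, 2, 6] (Nat.beq (ct i))) (band (eqW act SH B [cw i, [ct i]] [WH i, cw i])
      (bor (Nat.beq (ct i) 6) (anyL TEN fun w => eqW act SH B [WH i] [w])))))) 0 1920 5 = true := by decide +kernel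

theorem hE : rng (fun i => bor (neW act ALL B [WH i, [6]] [[6], WH i]) (band (inS SE (WH i))
    (bor (Nat.beq (ct i) 6) (anyL [[], [1], [2], [1, 2]] fun w => eqW act SH B [WH i] [w])))) 0 1920 5 = true := by
  decide +kernel

/-- syllables -/
def sy (h : List ℕ) (k : ℕ) : List ℕ := nth [] [[], [8, 9], [9, 8], h, rv h] k

theorem hO : rng (fun i => bor (anyL [[], [8, 9], [9, 8]] fun w => eqW act SH B [WH i] [w])
    (band (blt (ot i) 13) (eqW act SH B ((ow i).map (sy (WH i))) [nth [] ([8, 6, 8] :: TG) (ot i)]))) 0 1920 5 = true := by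
  decide +kernel

theorem hρ : rng (fun i => anyL [[], [1], [2], [1, 2]] fun v => eqW act ALL B [[3, 10, 9, 8], WE i]
    [v, WE i, [3, 10, 9, 8]]) 0 16 0 = true := by decide +kernel

theorem hρ' : rng (fun i => anyL [[], [1], [2], [1, 2]] fun v => eqW act ALL B [[8, 9, 10, 3], WE i]
    [v, WE i, [8, 9, 10, 3]]) 0 16 0 = true := by decide +kernel

theorem hU : rng (fun i => (fun y => bor (neW act ALL B [y, [6]] [[6], y]) (band (eqW act ALL B [y, [7]] [[7], y])
    (eqW act ALL B [y, [8, 9]] [[8, 9], y]))) (WC i ++ ([1] ++ rv (WC i)))) 0 315 3 = true := by decide +kernel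

end

end CA.PM.HJ

theorem CA.PM.realizeEqnsHJ2 : True := by
  have := @CA.PM.HJ.sy.eq_1
  have := @CA.PM.HJ.sy.eq_def
  have := @CA.PM.HJ.sy.congr_simp
  have := @CA.PM.HJ.P.eq_1
  have := @CA.PM.HJ.P.eq_def
  have := @CA.PM.HJ.P.congr_simp
  have := @CA.PM.HJ.X.eq_1
  have := @CA.PM.HJ.X.eq_def
  have := @CA.PM.HJ.X.congr_simp
  have := @CA.PM.HJ.γ.eq_1
  have := @CA.PM.HJ.γ.eq_def
  have := @CA.PM.HJ.γ.congr_simp
  trivial
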