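/-
Groups of Hall-Janko type: the centralizer of a non-central involution.
-/
import Cfsg.Agent.PM.Ch
import Cfsg.Agent.Dih.BSW1
import Cfsg.Agent.Dih.ZS

set_option autoImplicit false

namespace CA.PM

open CA.Fi CA.FG CA.BG CA.Typ Subgroup Cfsg

variable {G : Type*} [Group G]

/-- conjugates of `z` commuting with `t` -/
def ZC (z t : G) : Set G := {y | IsConj z y ∧ Commute y t}

theorem ZC_conj (z t g : G) : (ZC z (g * t * g⁻¹)).ncard = (ZC z t).ncard := by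
  refine Set.ncard_congr (fun y _ => g⁻¹ * y * g) (fun y h => ⟨h.1.trans (isConj_iff.2 ⟨g⁻¹, by simp⟩),
    (commute_conj_left_iff.1 h.2.symm).symm⟩) (fun a b _ _ e => by simpa using e) fun y h =>
      ⟨g * y * g⁻¹, ⟨h.1.trans (isConj_iff.2 ⟨g, rfl⟩), commute_conj_iff.2 h.2⟩, by group⟩

/-- local data at a non-central involution -/
structure TB (z s t ρ : G) : Prop where
  z2 : z * z = 1
  z1 : z ≠ 1
  t2 : t * t = 1
  nc : ¬ IsConj z t
  cl : ∀ x, x * x = 1 → x ≠ 1 → IsConj z x ∨ IsConj t x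
  zt : Commute z t
  ρt : Commute ρ t
  sz : Commute s z
  ρz : ρ * z * ρ⁻¹ = s
  ρs : ρ * s * ρ⁻¹ = s * z
  cE : Nat.card (centralizer {z} ⊓ centralizer {t} : Subgroup G) = 16
  sq : ∀ e, Commute e z → Commute e t → e * e = 1
  V : ∀ e, Commute e z → Commute e t → IsConj z e → e ∈ closure ({z, s} : Set G)
  ρE : ∀ e, Commute e z → Commute e t →
    ρ * e * ρ⁻¹ * e⁻¹ ∈ closure ({z, s} : Set G) ∧ ρ⁻¹ * e * ρ⁻¹⁻¹ * e⁻¹ ∈ closure ({z, s} : Set G)
  ten : (ZC z z).ncard ≤ 11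

namespace TB

variable {z s t ρ : G} (h : TB z s t ρ)
include h

theorem sqc {y : G} (hy : IsConj z y) : y * y = 1 ∧ y ≠ 1 := by
  obtain ⟨g, rfl⟩ := isConj_iff.1 hy
  exact ⟨by rw [show g * z * g⁻¹ * (g * z * g⁻¹) = g * (z * z) * g⁻¹ by group, h.z2]; simp, by simpa using h.z1⟩

theorem cs : IsConj z s := isConj_iff.2 ⟨ρ, h.ρz⟩

theorem memV {x : G} : x ∈ closure ({z, s} : Set G) ↔ x = 1 ∨ x = z ∨ x = s ∨ x = s * z :=
  mem_closure_pair_iff h.z2 (h.sqc h.cs).1 h.sz.symm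

theorem ρz' : ρ⁻¹ * z * ρ⁻¹⁻¹ = s * z := by
  have : ρ * (s * z) * ρ⁻¹ = z := by
    calc _ = ρ * s * ρ⁻¹ * (ρ * z * ρ⁻¹) := by group
      _ = z := by rw [h.ρs, h.ρz, h.sz.eq, mul_assoc, (h.sqc h.cs).1, mul_one]
  nth_rw 1 [← this]; group

theorem V_le {v : G} (hv : v ∈ closure ({z, s} : Set G)) : Commute v z ∧ Commute v t := by
  have st : Commute s t := h.ρz ▸ (h.ρt.mul_left h.zt).mul_left h.ρt.inv_left
  rcases h.memV.1 hv with rfl | rfl | rfl | rfl
  exacts [⟨Commute.one_left _, Commute.one_left _⟩, ⟨Commute.refl _, h.zt⟩, ⟨h.sz, st⟩,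
    ⟨h.sz.mul_left (Commute.refl _), st.mul_left h.zt⟩]

theorem comm {e f : G} (a : Commute e z) (b : Commute e t) (c : Commute f z) (d : Commute f t) : Commute e f := by
  have := inv_eq_self_of_sq (h.sq _ (a.mul_left c) (b.mul_left d))
  rw [mul_inv_rev, inv_eq_self_of_sq (h.sq _ a b), inv_eq_self_of_sq (h.sq _ c d)] at this
  exact this.symm

theorem ρV {v : G} (hv : v ∈ closure ({z, s} : Set G)) (h1 : v ≠ 1) : ∃ g, Commute g t ∧ g * z * g⁻¹ = v ∧
    ∀ e, Commute e z → Commute e t → g * e * g⁻¹ * e⁻¹ ∈ closure ({z, s} : Set G) := by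
  rcases h.memV.1 hv with rfl | e | e | e
  · exact absurd rfl h1
  · exact ⟨1, Commute.one_left _, by simp [e], fun e _ _ => by simp⟩
  · exact ⟨ρ, h.ρt, e ▸ h.ρz, fun e a b => (h.ρE e a b).1⟩
  · exact ⟨ρ⁻¹, h.ρt.inv_left, e ▸ h.ρz', fun e a b => (h.ρE e a b).2⟩

theorem conj_V {g : G} (hg : Commute g t) (hz : Commute (g * z * g⁻¹) z) : g * z * g⁻¹ ∈ closure ({z, s} : Set G) :=
  h.V _ hz ((hg.mul_left h.zt).mul_left hg.inv_left) (isConj_iff.2 ⟨g, rfl⟩)

theorem dec {g : G} (hg : Commute g t) (hz : Commute (g * z * g⁻¹) z) {e : G} (a : Commute e z) (b : Commute e t) :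
    g * e * g⁻¹ * e⁻¹ ∈ closure ({z, s} : Set G) := by
  obtain ⟨k, k1, k2, k3⟩ := h.ρV (h.conj_V hg hz) (by simpa using h.z1)
  have c := h.comm (e := k⁻¹ * g) (conj_eq_iff_commute.1 (by
    rw [mul_inv_rev, mul_assoc k⁻¹, mul_assoc k⁻¹, ← mul_assoc _ g⁻¹, ← k2]; group)) (k1.inv_left.mul_left hg) a b
  convert k3 e a b using 2
  rw [← conj_eq_iff_commute.2 c]
  conv_lhs => rw [conj_eq_iff_commute.2 c]
  group

variable [Finite G]

theorem syl : IsSylowOf 2 (centralizer {z} ⊓ centralizer {t}) (centralizer ({t} : Set G)) := by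
  set E : Subgroup G := centralizer {z} ⊓ centralizer {t} with hE
  have m : ∀ {e}, e ∈ E ↔ Commute e z ∧ Commute e t := by simp [hE, mem_cent_iff]
  refine sylow_of_sylow_norm Nat.prime_two inf_le_right (sylow_mk (le_inf inf_le_right le_normalizer)
    ((pGrp_iff_card Nat.prime_two).2 ⟨4, h.cE⟩) ?_)
  have e : E.relIndex (centralizer {t} ⊓ normalizer (E : Set G)) =
      (centralizer {z}).relIndex (centralizer {t} ⊓ normalizer (E : Set G)) := by
    rw [← inf_relIndex_right E, ← inf_relIndex_right (centralizer {z}), hE, inf_assoc, ← inf_assoc (centralizer {t}),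
      inf_idem]
  have s1 := (h.sqc h.cs).2
  have zs : z ≠ s := fun e => h.z1 (by simpa [← e] using (e ▸ h.ρz : ρ * s * ρ⁻¹ = s).symm.trans h.ρs)
  rw [e, CA.Loc.relIndex_cent, show {y | ∃ c ∈ centralizer {t} ⊓ normalizer (E : Set G), c * z * c⁻¹ = y} = {z, s, s * z}
    from Set.ext fun y => ⟨?_, fun hy => ?_⟩, Set.ncard_eq_three.2 ⟨_, _, _, zs, by simpa using s1, by simpa using h.z1, rfl⟩]
  · decide
  · rintro ⟨c, hc, rfl⟩
    simpa [h.z1] using h.memV.1 (h.conj_V (mem_cent_iff.1 hc.1)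
      (m.1 ((mem_normalizer_iff.1 hc.2 z).1 (m.2 ⟨Commute.refl z, h.zt⟩))).1)
  · obtain ⟨g, g1, g2, g3⟩ := h.ρV (h.memV.2 (Or.inr hy)) (by
      rcases hy with rfl | rfl | rfl
      exacts [h.z1, s1, fun e => zs (by rw [eq_inv_of_mul_eq_one_left e, inv_eq_self_of_sq h.z2])])
    refine ⟨g, ⟨mem_cent_iff.2 g1, CA.Loc.mem_norm_of_conj_mem fun e he => ?_⟩, g2⟩
    simpa using mul_mem (m.2 (h.V_le (g3 e (m.1 he).1 (m.1 he).2))) he

theorem into {x : G} (hx : Commute x t) (h4 : x ^ 2 ^ 2 = 1) :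
    ∃ g, Commute g t ∧ Commute (g * x * g⁻¹) z ∧ Commute (g * x * g⁻¹) t := by
  obtain ⟨g, g1, g2⟩ := sylow_Jsub Nat.prime_two h.syl (pGrp_of_isPGroup Nat.prime_two (isP_zpowers h4))
    (zpowers_le.2 (mem_cent_iff.2 hx))
  have := g2 (conj_mem_conjg g (mem_zpowers x))
  exact ⟨g, mem_cent_iff.1 g1, mem_cent_iff.1 this.1, mem_cent_iff.1 this.2⟩

theorem no4 {x i : G} (hi : IsConj t i) (hx : Commute x i) (h4 : x ^ 2 ^ 2 = 1) : x * x = 1 := by
  obtain ⟨k, rfl⟩ := isConj_iff.1 hi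
  obtain ⟨g, -, a, b⟩ := h.into (x := k⁻¹ * x * k⁻¹⁻¹) (by simpa using (commute_conj_left_iff.1 hx.symm).symm)
    (by rw [conj_pow, h4]; simp)
  have := h.sq _ a b
  rw [show ∀ y : G, g * y * g⁻¹ * (g * y * g⁻¹) = g * (y * y) * g⁻¹ from fun y => by group, conj_eq_one_iff,
    show ∀ y : G, k⁻¹ * y * k⁻¹⁻¹ * (k⁻¹ * y * k⁻¹⁻¹) = k⁻¹ * (y * y) * k⁻¹⁻¹ from fun y => by group, conj_eq_one_iff] at this
  exact this

theorem ZC_iff {y : G} : y ∈ ZC z t ↔ ∃ g ∈ centralizer ({t} : Set G), g * z * g⁻¹ = y := by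
  refine ⟨fun hy => ?_, ?_⟩
  · obtain ⟨g, g1, a, b⟩ := h.into hy.2 (by rw [pow_two, pow_mul, pow_two y, (h.sqc hy.1).1, one_pow])
    obtain ⟨k, k1, k2, -⟩ := h.ρV (h.V _ a b (hy.1.trans (isConj_iff.2 ⟨g, rfl⟩))) (by simpa using (h.sqc hy.1).2)
    exact ⟨g⁻¹ * k, mem_cent_iff.2 (g1.inv_left.mul_left k1), by
      rw [mul_inv_rev, mul_assoc g⁻¹, mul_assoc g⁻¹, ← mul_assoc _ k⁻¹, k2]; group⟩
  · rintro ⟨g, hg, rfl⟩
    have := mem_cent_iff.1 hg
    exact ⟨isConj_iff.2 ⟨g, rfl⟩, (this.mul_left h.zt).mul_left this.inv_left⟩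

theorem card_C : Nat.card (centralizer ({t} : Set G)) = (ZC z t).ncard * 16 := by
  rw [CA.Loc.card_eq_orbit _ z, inf_comm, h.cE]
  exact congrArg (fun s => Set.ncard s * 16) (Set.ext fun _ => h.ZC_iff.symm)

theorem K_le : closure (ZC z t) ≤ centralizer {t} := (closure_le _).2 fun _ hy => mem_cent_iff.2 hy.2

theorem K_conj {g k : G} (hg : Commute g t) (hk : k ∈ closure (ZC z t)) : g * k * g⁻¹ ∈ closure (ZC z t) :=
  (mem_normalizer_iff.1 (CA.Loc.mem_norm_closure (s := ZC z t) fun y hy => Subgroup.subset_closure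
    ⟨hy.1.trans (isConj_iff.2 ⟨g, rfl⟩), (hg.mul_left hy.2).mul_left hg.inv_left⟩) k).1 hk

theorem K_z {k : G} (hk : k ∈ closure (ZC z t)) (c : Commute k z) : k ∈ closure ({z, s} : Set G) := by
  set E : Subgroup G := centralizer {z} ⊓ centralizer {t} with hE
  have m : ∀ {e}, e ∈ E ↔ Commute e z ∧ Commute e t := by simp [hE, mem_cent_iff]
  have a : closure (ZC z t) ≤ ⁅centralizer ({t} : Set G), centralizer ({t} : Set G)⁆ := (closure_le _).2 fun y hy => by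
    obtain ⟨g, hg, rfl⟩ := h.ZC_iff.1 hy
    have s1 := mem_cent_iff.2 (h.V_le (h.memV.2 (Or.inr (Or.inr (Or.inl rfl))))).2
    have := commutator_mem_commutator (mul_mem (mul_mem hg (mem_cent_iff.2 h.ρt)) (inv_mem hg))
      (mul_mem (mul_mem hg s1) (inv_mem hg))
    refine SetLike.mem_coe.2 ?_
    convert this using 1
    rw [show z = ρ * s * ρ⁻¹ * s⁻¹ by rw [h.ρs, h.sz.eq]; group, commutatorElement_def]
    group
  have b := abelian_Sylow_focal Nat.prime_two h.syl ⟨⟨fun x y => Subtype.ext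
    (h.comm (m.1 x.2).1 (m.1 x.2).2 (m.1 y.2).1 (m.1 y.2).2)⟩⟩
  refine (commutator_le.2 fun e he n hn => ?_ : _ ≤ closure ({z, s} : Set G))
    (b.le ⟨⟨mem_cent_iff.2 c, h.K_le hk⟩, a hk⟩)
  have := inv_mem (h.dec (mem_cent_iff.1 hn.1) (m.1 ((mem_normalizer_iff.1 hn.2 z).1
    (m.2 ⟨Commute.refl z, h.zt⟩))).1 (m.1 he).1 (m.1 he).2)
  convert this using 1
  rw [commutatorElement_def]; group

theorem K_v {k v : G} (hk : k ∈ closure (ZC z t)) (hv : v ∈ closure ({z, s} : Set G)) (h1 : v ≠ 1) (c : Commute k v) :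
    k ∈ closure ({z, s} : Set G) := by
  obtain ⟨g, g1, rfl, g3⟩ := h.ρV hv h1
  have a := h.K_z (h.K_conj g1.inv_left hk) (by simpa using (commute_conj_left_iff.1 c.symm).symm)
  simpa [mul_assoc] using mul_mem (g3 _ (h.V_le a).1 (h.V_le a).2) a

theorem V_ZC {v : G} (hv : v ∈ closure ({z, s} : Set G)) (h1 : v ≠ 1) : v ∈ ZC z t := by
  obtain ⟨g, g1, e, -⟩ := h.ρV hv h1
  exact h.ZC_iff.2 ⟨g, mem_cent_iff.2 g1, e⟩

theorem K_odd {y v : G} (hy : y ∈ ZC z t) (hn : y ∉ closure ({z, s} : Set G)) (hv : v ∈ closure ({z, s} : Set G))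
    (h1 : v ≠ 1) : ∃ k ∈ closure (ZC z t), k * v * k⁻¹ = y := by
  have v0 := h.V_ZC hv h1
  have m := mul_mem (subset_closure (k := ZC z t) hy) (subset_closure v0)
  have o : Odd (orderOf (y * v)) := by
    rw [← Nat.not_even_iff_odd]
    intro e
    obtain ⟨k, k1, k2⟩ := dih_exists_of_even e
    have c := dih_commute (h.sqc hy.1).1 (h.sqc v0.1).1 k1
    exact hn (h.K_v (subset_closure hy) (h.K_v (pow_mem m k) hv h1 c.2.symm) k2 c.1)
  obtain ⟨k, e⟩ := dih_conj_of_odd (h.sqc hy.1).1 (h.sqc v0.1).1 o (pow_orderOf_eq_one _)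
  exact ⟨_, inv_mem (pow_mem m k), e⟩

theorem K_main {w : G} (hw : w ∈ ZC z t) (hn : w ∉ closure ({z, s} : Set G)) :
    IsSimpleGroup (closure (ZC z t)) ∧ ¬ IsMulCommutative (closure (ZC z t)) ∧ Nat.card (closure (ZC z t)) = 60 ∧
      (ZC z t).ncard = 15 := by
  classical
  set K := closure (ZC z t) with hK
  have zV := h.memV.2 (Or.inr (Or.inl rfl))
  have z0 := h.V_ZC zV h.z1
  have cj : ∀ y ∈ ZC z t, ∃ k ∈ K, k * z * k⁻¹ = y := fun y hy => by
    by_cases e : y ∈ closure ({z, s} : Set G)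
    · obtain ⟨a, ha, ea⟩ := h.K_odd hw hn e (h.sqc hy.1).2
      obtain ⟨b, hb, eb⟩ := h.K_odd hw hn zV h.z1
      exact ⟨a⁻¹ * b, mul_mem (inv_mem ha) hb, by
        rw [mul_inv_rev, mul_assoc a⁻¹, mul_assoc a⁻¹, ← mul_assoc _ b⁻¹, eb, ← ea]; group⟩
    · exact h.K_odd hy e zV h.z1
  let z' : K := ⟨z, subset_closure z0⟩
  have cj' : ∀ y : K, (y : G) ∈ ZC z t → IsConj z' y := fun y hy => by
    obtain ⟨k, hk, e⟩ := cj y hy
    exact isConj_iff.2 ⟨⟨k, hk⟩, Subtype.ext e⟩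
  have z2 : z' * z' = 1 := Subtype.ext h.z2
  have z1 : z' ≠ 1 := fun e => h.z1 (congrArg Subtype.val e)
  have cz : ∀ x : K, Commute x z' → (x : G) ∈ closure ({z, s} : Set G) := fun x c =>
    h.K_z x.2 (congrArg Subtype.val c)
  have s0 := h.V_ZC (h.memV.2 (Or.inr (Or.inr (Or.inl rfl)))) (h.sqc h.cs).2
  have s1 := h.ZC_iff.2 ⟨_, mem_cent_iff.2 h.ρt.inv_left, h.ρz'⟩
  have sm : IsSimpleGroup K := by
    haveI : Nontrivial K := ⟨⟨z', 1, z1⟩⟩
    refine ⟨fun N hN => ?_⟩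
    by_cases e : z' ∈ N
    · refine Or.inr (eq_top_iff.2 fun ⟨x, hx⟩ _ => (mem_map_iff_mem K.subtype_injective).1
        ((closure_le (N.map K.subtype)).2 (fun y hy => ?_) hx))
      obtain ⟨k, ek⟩ := isConj_iff.1 (cj' ⟨y, subset_closure hy⟩ hy)
      exact ⟨_, hN.conj_mem _ e k, congrArg Subtype.val ek⟩
    · refine Or.inl (normal_eq_bot (s := ⟨s, subset_closure s0⟩) z2 (cj' _ s0) (cj' _ s1) fun x hx c => ?_)
      by_contra x1
      obtain ⟨k, rfl⟩ := isConj_iff.1 (cj' x (h.V_ZC (cz x c) fun e => x1 (Subtype.ext e)))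
      exact e (by simpa [mul_assoc] using hN.conj_mem _ hx k⁻¹)
  have na : ¬ IsMulCommutative K := fun c => hn (cz ⟨w, subset_closure hw⟩ (c.1.1 _ _))
  have c4 : Nat.card (K ⊓ centralizer {z} : Subgroup G) = 4 := by
    rw [show K ⊓ centralizer {z} = closure {z, s} from le_antisymm (fun x hx => h.K_z hx.1 (mem_cent_iff.1 hx.2))
      (le_inf (closure_mono (by rintro _ (rfl | rfl); exacts [z0, s0])) fun x hx => mem_cent_iff.2 (h.V_le hx).1),
      Set.insert_eq, Subgroup.closure_union, ← zpowers_eq_closure, ← zpowers_eq_closure]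
    haveI := Fact.mk Nat.prime_two
    refine CA.Loc.card_sup_zpowers2 (orderOf_eq_prime (by rw [pow_two, h.z2]) h.z1)
      (orderOf_eq_prime (by rw [pow_two, (h.sqc h.cs).1]) (h.sqc h.cs).2) Nat.prime_two h.sz.symm fun e => ?_
    rcases (mem_zpowers_iff_of_sq h.z2).1 e with e | e
    exacts [(h.sqc h.cs).2 e, (h.sqc s1.1).2 (by rw [e, h.z2])]
  have oz : Nat.card (zpowers z') = 2 := by
    haveI := Fact.mk Nat.prime_two
    rw [Nat.card_zpowers, orderOf_eq_prime (by rw [pow_two, z2]) z1]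
  have lt : Nat.card K < 96 := by
    letI := Fintype.ofFinite K
    have le : zpowers z' ≤ centralizer {z'} := zpowers_le.2 (mem_cent_iff.2 (Commute.refl _))
    refine CA.Dih.BSW.card_lt (t := z') ⟨z2, z1, mem_zpowers _, le, ?_, fun x hx _ => ?_, fun g x hx x1 e => ?_,
      fun u u2 u1 => cj' u ?_⟩ ((Subgroup.Normal.eq_bot_or_eq_top inferInstance).resolve_left fun e => na
        ⟨⟨fun a b => commutatorElement_eq_one_iff_mul_comm.1 (mem_bot.1
          (e ▸ commutator_mem_commutator (mem_top a) (mem_top b)))⟩⟩) oz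
    · have := card_mul_index ((zpowers z').subgroupOf (centralizer {z'}))
      rw [Nat.card_congr (subgroupOfEquivOfLe le).toEquiv, oz, ← card_map_of_injective K.subtype_injective,
        show (centralizer {z'}).map K.subtype = K ⊓ centralizer {z} from Subgroup.ext fun x => ⟨by
          rintro ⟨y, hy, rfl⟩; exact ⟨y.2, mem_cent_iff.2 (congrArg Subtype.val (mem_cent_iff.1 hy))⟩,
          fun hx => ⟨⟨x, hx.1⟩, mem_cent_iff.2 (Subtype.ext (mem_cent_iff.1 hx.2)), rfl⟩⟩, c4] at this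
      unfold relIndex
      omega
    · have := h.V_le (cz x (mem_cent_iff.1 hx))
      exact Subtype.ext (h.sq _ this.1 this.2)
    · obtain rfl := ((mem_zpowers_iff_of_sq z2).1 hx).resolve_left x1
      exact mem_cent_iff.2 (conj_eq_iff_commute.1 (((mem_zpowers_iff_of_sq z2).1 e).resolve_left (by simpa using z1)))
    · have u2' : (u : G) * u = 1 := congrArg Subtype.val u2
      obtain ⟨g, g1, a, -⟩ := h.into (mem_cent_iff.1 (h.K_le u.2)) (by rw [pow_two, pow_mul, pow_two u.1, u2', one_pow])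
      have := (h.V_ZC (h.K_z (h.K_conj g1 u.2) a) (by simpa using u1)).1
      exact ⟨this.trans (isConj_iff.2 ⟨g, rfl⟩).symm, mem_cent_iff.1 (h.K_le u.2)⟩
  have c60 : Nat.card K = 60 := by have := CA.Dih.card_simple_le na (by omega); omega
  have := CA.Loc.card_eq_orbit K z
  rw [c60, c4, show {y | ∃ c ∈ K, c * z * c⁻¹ = y} = ZC z t from Set.ext fun y =>
    ⟨fun ⟨c, hc, e⟩ => h.ZC_iff.2 ⟨c, h.K_le hc, e⟩, cj y⟩] at this
  exact ⟨sm, na, c60, by omega⟩

theorem ZC_le : (ZC z t).ncard ≤ 15 := by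
  by_cases e : ∀ w ∈ ZC z t, w ∈ closure ({z, s} : Set G)
  · exact (ncard_le_length (L := [1, z, s, s * z]) fun w hw => by simpa using h.memV.1 (e w hw)).trans (by simp)
  · push Not at e
    obtain ⟨w, a, b⟩ := e
    exact (h.K_main a b).2.2.2.le

theorem index_le : (centralizer ({z} : Set G)).index ≤ 390 := by
  classical
  rw [← relIndex_top_right, CA.Loc.relIndex_cent]
  let A : G → Finset G := fun x => (Set.toFinite (ZC z x)).toFinset
  have cA : ∀ x, (A x).card = (ZC z x).ncard := fun x => (Set.ncard_eq_toFinset_card _ _).symm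
  have mA : ∀ {x y}, y ∈ A x ↔ y ∈ ZC z x := by simp [A]
  have c0 : (A t).card ≤ 15 := cA t ▸ h.ZC_le
  have c1 : ((A t).biUnion A).card ≤ (A t).card * 11 := Finset.card_biUnion_le_card_mul _ _ _ fun i hi => by
    obtain ⟨g, rfl⟩ := isConj_iff.1 (mA.1 hi).1
    rw [cA, ZC_conj]; exact h.ten
  have c2 : ((A t).biUnion fun j => if IsConj t (t * j) then A (t * j) else ∅).card ≤ (A t).card * 15 :=
    Finset.card_biUnion_le_card_mul _ _ _ fun j _ => by
      split_ifs with e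
      · obtain ⟨g, e⟩ := isConj_iff.1 e
        rw [cA, ← e, ZC_conj]; exact h.ZC_le
      · simp
  refine (Set.ncard_le_ncard (t := ((A t).biUnion A ∪ (A t).biUnion fun j => if IsConj t (t * j) then A (t * j) else ∅ :
    Finset G)) ?_).trans (by rw [Set.ncard_coe_finset]; exact (Finset.card_union_le _ _).trans (by omega))
  rintro y ⟨g, -, e⟩
  have hy : IsConj z y := isConj_iff.2 ⟨g, e⟩
  have y2 := (h.sqc hy).1
  obtain ⟨k, k1, k2⟩ := dih_exists_of_even (dih_even_of_not_isConj h.t2 y2 fun c => h.nc (hy.trans c.symm))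
  have c := dih_commute h.t2 y2 k1
  rw [Finset.mem_coe, Finset.mem_union, Finset.mem_biUnion, Finset.mem_biUnion]
  rcases h.cl _ k1 k2 with i | i
  · exact Or.inl ⟨_, mA.2 ⟨i, c.1.symm⟩, mA.2 ⟨hy, c.2⟩⟩
  · rcases Nat.even_or_odd' k with ⟨j, rfl | rfl⟩
    · refine absurd ?_ k2
      rw [two_mul, pow_add]
      exact h.no4 i ((Commute.refl _).pow_pow _ _) (by rw [← k1, ← pow_mul, ← pow_add]; congr 1; omega)
    · have e : t * (t * (t * y) ^ (2 * j + 1)) = (t * y) ^ (2 * j + 1) := by rw [← mul_assoc, h.t2, one_mul]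
      refine Or.inr ⟨_, mA.2 ⟨hy.trans (isConj_iff.2 ⟨_, dih_odd h.t2 y2 j⟩), (Commute.refl t).mul_left c.1.symm⟩, ?_⟩
      rw [e, if_pos i]
      exact mA.2 ⟨hy, c.2⟩

end TB

end CA.PM

theorem CA.PM.realizeEqnsHJ3 : True := by
  have := @CA.PM.ZC.eq_1.{0}
  have := @CA.PM.ZC.eq_def.{0}
  have := @CA.PM.ZC.congr_simp.{0}
  trivial
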