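/-
Recognition of the Hall-Janko group.
-/
import Cfsg.Agent.PM.HJ2
import Cfsg.Agent.PM.HJ3

set_option autoImplicit false
set_option maxRecDepth 100000

namespace CA.PM.HJ

open CA.TC CA.PM CA.Fi CA.Typ Subgroup Cfsg

variable {G : Type*} [Group G] {Θ : X → G} {z : G} {K' : Subgroup G}

/-- the hypotheses -/
structure Hy (Θ : X → G) (z : G) (K' : Subgroup G) : Prop where
  H : PH Θ (centralizer {γ 1}) (centralizer {z})
  P : PH Θ P K'
  hz : Θ (γ 1) = z

theorem ρ_P : wd γ [3, 10, 9, 8] ∈ P := by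
  have := mul_mem (wd_mem (S := SP) (w := [3, 10]) (fun _ => P_mem) (by decide +kernel)) (inv_mem σ_P)
  rwa [← sqγ.rev (by decide +kernel), ← wd_append] at this

namespace Hy

variable (M : Hy Θ z K')
include M

theorem rH : RM (fun g => Θ (γ g)) SH 315 act B := (rmS (by decide +kernel)).tr M.H (fun _ => H_comm) fun _ _ => rfl

theorem rP : RM (fun g => Θ (γ g)) SP 315 act B := (rmS (by decide +kernel)).tr M.P (fun _ => P_mem) fun _ _ => rfl

theorem wH {w : List ℕ} (hw : inS SH w = true) : Θ (wd γ w) = wd (fun g => Θ (γ g)) w :=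
  PH_wd M.H (fun _ => H_comm) (fun _ _ => rfl) hw

theorem wP {w : List ℕ} (hw : inS SP w = true) : Θ (wd γ w) = wd (fun g => Θ (γ g)) w :=
  PH_wd M.P (fun _ => P_mem) (fun _ _ => rfl) hw

theorem sqA : Sq (fun g => Θ (γ g)) ALL := fun g hg =>
  (bor_iff.1 (allS_spec (f := fun g => bor (tb SH g) (tb SP g)) (by decide) (by decide +kernel) hg)).elim
    (M.rH.sq g) (M.rP.sq g)

theorem enum {h : G} (hz : Commute h z) : ∃ i < 1920, inS SH (WH i) = true ∧ wd (fun g => Θ (γ g)) (WH i) = h := by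
  obtain ⟨k, hk, rfl⟩ := M.H.surj _ (mem_cent_iff.2 hz)
  obtain ⟨i, hi, h1, rfl⟩ := enum_H (mem_cent_iff.1 hk)
  exact ⟨i, hi, h1, (M.wH h1).symm⟩

theorem neH {u v : List (List ℕ)} (hu : ∀ w ∈ u, inS SH w = true) (hv : ∀ w ∈ v, inS SH w = true)
    (h : neW act ALL B u v = true) : wds (fun g => Θ (γ g)) u ≠ wds (fun g => Θ (γ g)) v := by
  have a := inS_flatten (allL_iff.2 hu)
  have b := inS_flatten (allL_iff.2 hv)
  rw [wds_eq, wds_eq, ← M.wH a, ← M.wH b, Ne, M.H.eq_iff (wd_mem (fun _ => H_comm) a) (wd_mem (fun _ => H_comm) b),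
    ← wds_eq, ← wds_eq]
  exact bm.ne h

theorem card_C : Nat.card (centralizer ({z} : Set G)) = 1920 := by
  rw [← card_H]; exact Nat.card_congr M.H.equiv.toEquiv.symm

theorem H_le : gp (fun g => Θ (γ g)) SH ≤ centralizer {z} := gp_le fun _ hg => M.H.mem _ (H_comm hg)

theorem conjP {g : X} (hg : g ∈ HJ.P) {u v : List ℕ} (hu : inS SP u = true) (hv : inS SP v = true)
    (e : g * wd γ u * g⁻¹ = wd γ v) :
    Θ g * wd (fun g => Θ (γ g)) u * (Θ g)⁻¹ = wd (fun g => Θ (γ g)) v := by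
  rw [← M.wP hu, ← M.wP hv, ← e, M.P.conj hg (wd_mem (fun _ => P_mem) hu)]

theorem σc : Commute (wd (fun g => Θ (γ g)) [8, 9]) (Θ (γ 10)) := by
  have := M.conjP σ_P (u := [10]) (v := [10]) (by decide +kernel) (by decide +kernel) (rm.conj (by decide +kernel))
  rwa [M.wH (by decide +kernel), wd_one, conj_eq_iff_commute] at this

theorem d_eq : wd (fun g => Θ (γ g)) dw = wd (fun g => Θ (γ g)) [3, 10, 3, 8] * Θ (γ 10) *
    (wd (fun g => Θ (γ g)) [3, 10, 3, 8])⁻¹ := by
  rw [← M.sqA.rev (by decide +kernel), ← wd_one (fun g => Θ (γ g)) 10, ← wd_append, ← wd_append]; rfl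

theorem σd : Commute (wd (fun g => Θ (γ g)) [8, 9]) (wd (fun g => Θ (γ g)) dw) := by
  have a := M.rH.comm (u := [8, 9]) (v := [3]) (by decide +kernel)
  have b := M.rH.conj (u := [8]) (z := [9, 8]) (y := [8, 9]) (by decide +kernel)
  have c := M.σc.inv_left
  rw [← M.sqA.rev (by decide +kernel)] at c
  have d := (commute_conj_iff (g := wd (fun g => Θ (γ g)) [8])).2 c
  rw [show [8, 9].reverse = [9, 8] from rfl, b] at d
  have e := (a.mul_right M.σc).mul_right a
  rw [M.d_eq]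
  simpa [mul_assoc] using (e.mul_right d).mul_right e.inv_right

theorem zs : IsConj z (Θ (γ 2)) := by
  simpa [M.hz] using isConj_iff.2 ⟨_, M.rP.conj (u := [3, 10]) (z := [1]) (y := [2]) (by decide +kernel)⟩

theorem zd : IsConj z (wd (fun g => Θ (γ g)) dw) := by
  have a := isConj_iff.2 ⟨_, M.rH.conj (u := [8]) (z := [2]) (y := [3]) (by decide +kernel)⟩
  have b := isConj_iff.2 ⟨_, M.rP.conj (u := [3, 10]) (z := [3]) (y := [10]) (by decide +kernel)⟩
  rw [wd_one] at a
  rw [wd_one _ 10] at b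
  exact (M.zs.trans (a.trans b)).trans (isConj_iff.2 ⟨_, M.d_eq.symm⟩)

theorem rels {w : List ℕ} (hw : eqW act SH B [w, w] [] = true)
    (c : Commute (wd (fun g => Θ (γ g)) w) (wd (fun g => Θ (γ g)) dw)) :
    ∀ r ∈ [sc, dw ++ w ++ dw ++ w], wd (fun g => Θ (γ g)) r = 1 := by
  have d2 := M.sqA.rev (w := dw) (by decide +kernel)
  have w2 := M.rH.eq hw
  simp only [wds_cons, wds_nil, mul_one] at w2
  refine List.forall_mem_cons.2 ⟨?_, List.forall_mem_singleton.2 ?_⟩
  · have := conj_eq_iff_commute.2 M.σc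
    rw [← M.sqA.rev (by decide +kernel), ← mul_inv_eq_one, inv_eq_self_of_sq (M.sqA 10 (by decide +kernel))] at this
    simpa [sc, mul_assoc] using this
  · rw [wd_append, wd_append, wd_append, mul_assoc _ _ (wd _ dw), c.eq, ← mul_assoc, mul_assoc _ _ (wd _ w), w2, mul_one]
    nth_rw 2 [show dw = dw.reverse from rfl]
    rw [d2, mul_inv_cancel]

theorem rs : ∀ r ∈ [(SH, B), (SP, B)], Rel (fun g => Θ (γ g)) act r.1 r.2 :=
  List.forall_mem_cons.2 ⟨M.rH.rel, List.forall_mem_singleton.2 M.rP.rel⟩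

theorem relJ [Finite G] (h : (centralizer ({z} : Set G)).index < 630) :
    Commute (wd (fun g => Θ (γ g)) [8, 6, 8]) (wd (fun g => Θ (γ g)) dw) := by
  set a : ℕ → G := fun g => Θ (γ g) with ha
  set D : Subgroup G := centralizer {z} ⊓ centralizer {wd a dw} with hD
  have c := CA.Loc.card_eq_orbit (centralizer {z}) (wd a dw)
  rw [← relIndex_top_right, CA.Loc.relIndex_cent] at h
  have c2 := (Set.ncard_le_ncard (s := {y | ∃ c ∈ centralizer ({z} : Set G), c * wd a dw * c⁻¹ = y}) (by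
    rintro _ ⟨k, -, rfl⟩
    obtain ⟨g, e⟩ := isConj_iff.1 (M.zd.trans (isConj_iff.2 ⟨k, rfl⟩))
    exact ⟨g, mem_top _, e⟩)).trans_lt h
  obtain ⟨x, hx, nx⟩ : ∃ x ∈ D, x ∉ [[], [8, 9], [9, 8]].map (wd a) := by
    by_contra e
    push Not at e
    have := ncard_le_length (s := (D : Set G)) e
    rw [← Nat.card_coe_set_eq, List.length_map] at this
    rw [M.card_C] at c
    have := Nat.mul_le_mul c2.le this
    exact absurd (c.le.trans this) (by decide)
  obtain ⟨i, hi, h1, rfl⟩ := M.enum (mem_cent_iff.1 hx.1)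
  have σD : wd a [8, 9] ∈ D := ⟨M.H_le (wd_mem_gp (by decide +kernel)), mem_cent_iff.2 M.σd⟩
  rcases bor_iff.1 (rng_spec hO i (Nat.zero_le _) hi) with e | e
  · obtain ⟨w, hw, e⟩ := anyL_spec e
    exact absurd (List.mem_map.2 ⟨w, hw, (M.rH.eq1 e).symm⟩) nx
  · rw [band_iff, blt_iff] at e
    have m : wds a ((ow i).map (sy (WH i))) ∈ D := D.list_prod_mem fun y hy => by
      simp only [List.mem_map] at hy
      obtain ⟨_, ⟨k, -, rfl⟩, rfl⟩ := hy
      have := nth_mem [] [[], [8, 9], [9, 8], WH i, rv (WH i)] k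
      simp only [List.mem_cons, List.not_mem_nil, or_false] at this
      rcases this with e | e | e | e | e | e <;> rw [sy, e]
      exacts [one_mem _, one_mem _, σD, (M.sqA.rev (w := [8, 9]) (by decide +kernel)).symm ▸ inv_mem σD, hx,
        by rw [rv_eq, M.rH.sq.rev h1]; exact inv_mem hx]
    rw [M.rH.eq e.2, wds_cons, wds_nil, mul_one] at m
    rcases List.mem_cons.1 ((show ∀ k < 13, nth [] ([8, 6, 8] :: TG) k ∈ [8, 6, 8] :: TG by decide +kernel) _ e.1)
      with k | k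
    · exact k ▸ mem_cent_iff.1 m.2
    · obtain ⟨C, h1, h2, h3, h4, h5⟩ := bad _ k
      obtain ⟨p, hp, e⟩ := h1.cover (h3 ▸ M.sqA) (h5 ▸ valS_spec (h3 ▸ M.sqA) M.rs (M.rels
        (allL_spec (show allL TG (fun w => eqW act SH B [w, w] []) = true by decide +kernel) _ k)
        (mem_cent_iff.1 m.2))) (w := [10]) (by rw [h3]; decide +kernel)
      obtain rfl : p = 0 := by omega
      rw [tw_zero h1.root, wd_nil, mul_one, wd_one, h4] at e
      have := mem_cent_iff.1 (M.H_le e)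
      rw [← M.hz, M.P.comm_iff (P_mem (by decide +kernel)) (P_mem (by decide +kernel))] at this
      exact absurd (by simpa using this) (bm.ncomm (u := [10]) (v := [1]) (by decide +kernel))

/-- the amalgam map extends to an isomorphism -/
theorem ext [Finite G] (h : (centralizer ({z} : Set G)).index < 630) :
    ∃ φ : X ≃* G, ∀ w, inS ALL w = true → φ (wd γ w) = wd (fun g => Θ (γ g)) w := by
  obtain ⟨φ, hφ⟩ := bm.exists_hom gp_top (RM.step Z4_ok mod Z4_sep Z4_val M.sqA M.rs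
    (List.forall_mem_cons.2 ⟨(rmS (by decide +kernel)).rel, List.forall_mem_singleton.2 (rmS (by decide +kernel)).rel⟩)
    (M.rels (by decide +kernel) (M.relJ h)) (fun r hr => hER r ((show ∀ r ∈ EJ, r ∈ ER by decide +kernel) r hr)) M.rH.rel)
  have inj : Function.Injective φ := inj_of (by
    rw [← wd1, hφ _ (by decide +kernel), wd_one]
    exact fun e => es.z_ne (M.H.inj _ (H_comm (by decide +kernel)) e))
  refine ⟨MulEquiv.ofBijective φ ⟨inj, MonoidHom.range_eq_top.1 (index_eq_one.1 ?_)⟩, hφ⟩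
  have c1 := card_mul_index φ.range
  have c2 := card_mul_index (centralizer ({z} : Set G))
  have c3 := index_ne_zero_of_finite (H := φ.range)
  rw [← Nat.card_congr (MonoidHom.ofInjective inj).toEquiv, card_X] at c1
  rw [M.card_C] at c2
  omega

theorem inv_H {x : G} (hx : Commute x z) (h2 : x * x = 1) (h1 : x ≠ 1) : ∃ i < 1920, wd (fun g => Θ (γ g)) (WH i) = x ∧
    inS SH (WH i) = true ∧ (IsConj z x ∨ IsConj (Θ (γ 6)) x) ∧ (ct i = 6 → IsConj (Θ (γ 6)) x) ∧
    (ct i = 6 ∨ x ∈ TEN.map (wd fun g => Θ (γ g))) := by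
  obtain ⟨i, hi, k, rfl⟩ := M.enum hx
  have := rng_spec hC i (Nat.zero_le _) hi
  simp only [bor_iff, band_iff, beq_iff] at this
  rcases this with e | e | ⟨e1, e2, e3⟩
  · exact absurd (by simpa using h2) (M.neH (by simp [k]) (by simp) e)
  · exact absurd (M.rH.one e) h1
  · have c := isConj_iff.2 ⟨_, M.rH.conj e2⟩
    rw [wd_one] at c
    refine ⟨i, hi, rfl, k, ?_, fun e => e ▸ c, e3.imp id fun e => ?_⟩
    · obtain ⟨r, hr, e⟩ := anyL_spec e1
      rw [beq_iff.1 e] at c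
      simp only [List.mem_cons, List.not_mem_nil, or_false] at hr
      rcases hr with rfl | rfl | rfl
      exacts [Or.inl (M.hz ▸ c), Or.inl (M.zs.trans c), Or.inr c]
    · obtain ⟨w, hw, e⟩ := anyL_spec e
      exact List.mem_map.2 ⟨w, hw, (M.rH.eq1 e).symm⟩

theorem cl [Finite G] {Q : Subgroup G} (L : LE Q z) (x : G) (h2 : x * x = 1) (h1 : x ≠ 1) :
    IsConj z x ∨ IsConj (Θ (γ 6)) x := by
  obtain ⟨g, hg⟩ := conj_into L (isP_zpowers (p := 2) (k := 1) (x := x) (by simpa [pow_two] using h2))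
  have c : IsConj (g⁻¹ * x * g) x := isConj_iff.2 ⟨g, by group⟩
  obtain ⟨i, -, -, -, e, -⟩ := M.inv_H (hg x (mem_zpowers x)) (by
    calc _ = g⁻¹ * (x * x) * g := by group
      _ = 1 := by rw [h2]; group) fun e => h1 (isConj_one_right.1 (e ▸ c))
  exact e.imp (·.trans c) (·.trans c)

theorem enumE {e : G} (a : Commute e z) (b : Commute e (Θ (γ 6))) : (∃ j < 16, inS SE (WE j) = true ∧
    wd (fun g => Θ (γ g)) (WE j) = e) ∧ ∀ i < 1920, wd (fun g => Θ (γ g)) (WH i) = e → inS SH (WH i) = true →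
      ct i = 6 ∨ e ∈ Subgroup.closure ({z, Θ (γ 2)} : Set G) := by
  have k : ∀ i < 1920, wd (fun g => Θ (γ g)) (WH i) = e → inS SH (WH i) = true → inS SE (WH i) = true ∧
      (ct i = 6 ∨ e ∈ Subgroup.closure ({z, Θ (γ 2)} : Set G)) := fun i hi e1 k => by
    have := rng_spec hE i (Nat.zero_le _) hi
    simp only [bor_iff, band_iff, beq_iff] at this
    rcases this with h | h
    · exact absurd (by simpa [e1] using b.eq) (M.neH (by simp [k]; decide +kernel) (by simp [k]; decide +kernel) h)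
    · refine ⟨h.1, h.2.imp id fun h => ?_⟩
      obtain ⟨w, hw, h⟩ := anyL_spec h
      have z1 : z ∈ Subgroup.closure ({z, Θ (γ 2)} : Set G) := subset_closure (by simp)
      have z2 : Θ (γ 2) ∈ Subgroup.closure ({z, Θ (γ 2)} : Set G) := subset_closure (by simp)
      rw [← e1, M.rH.eq1 h]
      simp only [List.mem_cons, List.not_mem_nil, or_false] at hw
      rcases hw with rfl | rfl | rfl | rfl <;> simp [M.hz, z1, z2, mul_mem]
  obtain ⟨i, hi, k1, e1⟩ := M.enum a
  have R := M.rH.mono (T := SE) (by decide +kernel)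
  exact ⟨R.rel.enum R.tbl R.sq ltB (by decide) (i0 := 2) (by decide) (by decide +kernel) clE
    (e1 ▸ wd_mem_gp (k i hi e1 k1).1), fun i hi a b => (k i hi a b).2⟩

theorem tb [Finite G] {Q : Subgroup G} (L : LE Q z) (nc : ¬ IsConj z (Θ (γ 6))) :
    TB z (Θ (γ 2)) (Θ (γ 6)) (Θ (wd γ [3, 10, 9, 8])) := by
  have w := fun g => wd_one (fun g => Θ (γ g)) g
  have cm : ∀ {g k}, eqW act SH B [[g], [k]] [[k], [g]] = true → Commute (Θ (γ g)) (Θ (γ k)) := fun h => by
    simpa using M.rH.comm h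
  have SEP : ∀ {u}, inS SE u = true → inS SP u = true := inS_sub (by decide +kernel)
  have SEH : ∀ {u}, inS SE u = true → inS SH u = true := inS_sub (by decide +kernel)
  have ρE : ∀ {r : List ℕ}, wd γ r ∈ HJ.P → rng (fun i => anyL [[], [1], [2], [1, 2]] fun v => eqW act ALL B [r, WE i]
      [v, WE i, r]) 0 16 0 = true → ∀ e, Commute e z → Commute e (Θ (γ 6)) →
      Θ (wd γ r) * e * (Θ (wd γ r))⁻¹ * e⁻¹ ∈ Subgroup.closure ({z, Θ (γ 2)} : Set G) := fun {r} hr h e a b => by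
    obtain ⟨j, hj, k, rfl⟩ := (M.enumE a b).1
    obtain ⟨v, hv, h⟩ := anyL_spec (rng_spec h j (Nat.zero_le _) hj)
    have z1 : z ∈ Subgroup.closure ({z, Θ (γ 2)} : Set G) := subset_closure (by simp)
    have z2 : Θ (γ 2) ∈ Subgroup.closure ({z, Θ (γ 2)} : Set G) := subset_closure (by simp)
    rw [M.conjP hr (SEP k) (v := v ++ WE j) (inS_append.2 ⟨(show ∀ v ∈ [[], [1], [2], [1, 2]],
      inS SP v = true by decide +kernel) v hv, SEP k⟩) (by
      have := rm.eq h
      simp only [wds_cons, wds_nil, mul_one] at this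
      rw [this, wd_append]; group), wd_append, mul_inv_cancel_right]
    simp only [List.mem_cons, List.not_mem_nil, or_false] at hv
    rcases hv with rfl | rfl | rfl | rfl <;> simp [M.hz, z1, z2, mul_mem]
  refine ⟨L.z_sq, L.z_ne, M.sqA 6 (by decide +kernel), nc, M.cl L, M.hz ▸ cm (by decide +kernel), ?_,
    M.hz ▸ cm (by decide +kernel), ?_, ?_, le_antisymm ?_ ?_, fun e a b => ?_, fun e a b c => ?_,
    fun e a b => ⟨ρE ρ_P hρ e a b, ?_⟩, ?_⟩
  · simpa [conj_eq_iff_commute] using M.conjP ρ_P (u := [6]) (v := [6]) (by decide +kernel) (by decide +kernel)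
      (rm.conj (by decide +kernel))
  · simpa [M.hz] using M.conjP ρ_P (u := [1]) (v := [2]) (by decide +kernel) (by decide +kernel)
      (rm.conj (by decide +kernel))
  · simpa [M.hz] using M.conjP ρ_P (u := [2]) (v := [2, 1]) (by decide +kernel) (by decide +kernel)
      (rm.conj (by decide +kernel))
  · exact (card_le_of_enum (F := fun j => wd (fun g => Θ (γ g)) (WE j)) fun e he => by
      obtain ⟨j, hj, -, k⟩ := (M.enumE (mem_cent_iff.1 he.1) (mem_cent_iff.1 he.2)).1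
      exact ⟨j, hj, k⟩).2
  · have k := mod.wd_inj ltB (by decide +kernel) enE
    refine (le_ncard (Set.toFinite _) (fun j => wd (fun g => Θ (γ g)) (WE j)) (fun j hj => wd_mem (S := SE)
      (fun g hg => mem_inf.2 ⟨M.H.mem _ (H_comm (tb_sub (by decide +kernel) hg)), mem_cent_iff.2 (cm (allS_spec
        (f := fun g => eqW act SH B [[g], [6]] [[6], [g]]) (by decide) (by decide +kernel) hg))⟩) (k.1 j hj))
      fun i hi j hj e => k.2 i hi j hj ?_).trans (Nat.card_coe_set_eq _).ge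
    have a := SEH (k.1 i hi)
    have b := SEH (k.1 j hj)
    rwa [← M.wH a, ← M.wH b, M.H.eq_iff (wd_mem (fun _ => H_comm) a) (wd_mem (fun _ => H_comm) b)] at e
  · obtain ⟨j, hj, -, rfl⟩ := (M.enumE a b).1
    simpa using M.rH.eq (allLt_spec (show allLt 16 (fun j => eqW act SH B [WE j, WE j] []) = true by
      decide +kernel) j hj)
  · have o := orderOf_eq_of_isConj c
    rw [L.orderOf_z] at o
    obtain ⟨i, hi, e1, k, -, e2, -⟩ := M.inv_H a (by rw [← pow_two, o, pow_orderOf_eq_one]) (by rintro rfl; simp at o)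
    exact ((M.enumE a b).2 i hi e1 k).resolve_left fun h => nc (c.trans (e2 h).symm)
  · have i := sqγ.rev (w := [3, 10, 9, 8]) (by decide +kernel)
    rw [← M.P.inv ρ_P, ← i]
    exact ρE (i ▸ inv_mem ρ_P) hρ' e a b
  · refine (ncard_le_length (L := TEN.map (wd fun g => Θ (γ g))) fun y hy => ?_).trans (by rw [List.length_map]; rfl)
    have o := orderOf_eq_of_isConj hy.1
    rw [L.orderOf_z] at o
    obtain ⟨i, -, -, -, -, e2, e3⟩ := M.inv_H hy.2 (by rw [← pow_two, o, pow_orderOf_eq_one]) (by rintro rfl; simp at o)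
    exact e3.resolve_left fun h => nc (hy.1.trans (e2 h).symm)

end Hy

theorem exists_hy [Finite G] {Q Qs : Subgroup G} {s : G} (h : TH Q Qs z s 32 60) :
    ∃ Θ K', Hy Θ z K' ∧ Θ (γ 2) = s ∧ ∀ x ∈ gp γ SQ, Θ x ∈ Q := by
  obtain ⟨_, t⟩ := th
  obtain ⟨-, -, Θ, M⟩ := amal4m t h
  exact ⟨Θ, _, ⟨M.H, M.P, M.z⟩, M.s, M.Q⟩

/-- recognition from a bound for the order -/
theorem ident_of_index [Finite G] {Q Qs : Subgroup G} {s : G} (h : TH Q Qs z s 32 60)
    (hi : (centralizer ({z} : Set G)).index < 630) : ∃ φ : X ≃* G, φ (γ 1) = z ∧ φ (γ 2) = s := by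
  obtain ⟨Θ, _, M, e, -⟩ := exists_hy h
  obtain ⟨φ, k⟩ := M.ext hi
  exact ⟨φ, by simpa [M.hz] using k [1] (by decide +kernel), by simpa [e] using k [2] (by decide +kernel)⟩

/-- recognition of the Hall-Janko group -/
theorem ident [Finite G] {Q Qs : Subgroup G} {s : G} (h : TH Q Qs z s 32 60)
    (hc : ∃ x : G, x * x = 1 ∧ x ≠ 1 ∧ ¬ IsConj z x) : ∃ φ : X ≃* G, φ (γ 1) = z ∧ φ (γ 2) = s := by
  obtain ⟨Θ, _, M, -⟩ := exists_hy h
  obtain ⟨x, x2, x1, nx⟩ := hc
  exact ident_of_index h ((M.tb h.left fun c => (M.cl h.left x x2 x1).elim nx fun e => nx (c.trans e)).index_le.trans_lt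
    (by decide))

end CA.PM.HJ

theorem CA.PM.realizeEqnsHJ4 : True := by

  trivial
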