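/-
The non-central involutions of the Hall-Janko group.
-/
import Cfsg.Agent.PM.HJ4

set_option autoImplicit false
set_option maxRecDepth 100000

namespace CA.PM

open CA.TC CA.Fi CA.FG CA.FG.Comp CA.Typ Subgroup Cfsg Equiv

variable {G : Type*} [Group G]

/-- the four-group -/
abbrev V4 : Type := Multiplicative (ZMod 2) × Multiplicative (ZMod 2)

/-- the normal four-subgroup of `A₄` -/
def κ0 : V4 →* Perm (Fin 4) := MonoidHom.mk' (fun p => (swap 0 1 * swap 2 3) ^ p.1.toAdd.val *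
  (swap 0 2 * swap 1 3) ^ p.2.toAdd.val) (by decide +kernel)

/-- the normal four-subgroup of `A₄` -/
def κ : V4 →* alternatingGroup (Fin 4) := κ0.codRestrict _ (by
  show ∀ p, Perm.sign (κ0 p) = 1
  decide +kernel)

theorem κ_inj : Function.Injective κ := (injective_iff_map_eq_one _).2 fun p hp =>
  (show ∀ p, κ0 p = 1 → p = 1 by decide +kernel) p (congrArg Subtype.val hp)

theorem κ_conj (π : alternatingGroup (Fin 4)) (p : V4) : ∃ q, π * κ p * π⁻¹ = κ q :=
  ((show ∀ (π : Perm (Fin 4)) p, ∃ q, π * κ0 p * π⁻¹ = κ0 q by decide +kernel) π p).imp fun _ h => Subtype.ext h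

/-- the conclusion -/
def C5382 (t : G) : Prop := Nonempty (centralizer ({t} : Set G) ≃* V4 × alternatingGroup (Fin 5)) ∧
  Nonempty (normalizer (Op 2 (centralizer ({t} : Set G)) : Set G) ≃* alternatingGroup (Fin 4) × alternatingGroup (Fin 5))

theorem C5382.map {G' : Type*} [Group G'] {t : G} (h : C5382 t) (ψ : G ≃* G') : C5382 (ψ t) := by
  unfold C5382
  rw [← map_equiv_cent1, Op_map_equiv, ← map_equiv_normalizer_eq]
  exact ⟨h.1.map (ψ.subgroupMap _).symm.trans, h.2.map (ψ.subgroupMap _).symm.trans⟩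

theorem TB.c5382 [Finite G] {z s t ρ w : G} (h : TB z s t ρ) (hw : w ∈ ZC z t) (hn : w ∉ closure ({z, s} : Set G))
    {χ : alternatingGroup (Fin 4) →* G} (hχ : Function.Injective χ) {p0 : V4} (h0 : p0 ≠ 1) (ht : χ (κ p0) = t)
    (hc : ∀ π, ∀ y ∈ ZC z t, Commute (χ π) y) : C5382 t := by
  classical
  obtain ⟨sm, na, c60, c15⟩ := h.K_main hw hn
  have cC := h.card_C
  rw [c15] at cC
  set K := closure (ZC z t) with hK
  obtain ⟨e⟩ := CA.Dih.equiv_A5 na c60
  have hc' : ∀ π, ∀ k ∈ K, Commute (χ π) k := fun π k hk =>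
    (mem_cent_iff.1 ((closure_le (centralizer {χ π})).2 (fun y hy => mem_cent_iff.2 (hc π y hy).symm) hk)).symm
  let f := χ.noncommCoprod (K.subtype.comp e.symm.toMonoidHom) fun π a => hc' π _ (e.symm a).2
  have fa : ∀ p, f p = χ p.1 * e.symm p.2 := fun _ => rfl
  have inj : Function.Injective f := (injective_iff_map_eq_one _).2 fun p hp => by
    have c : e.symm p.2 ∈ center K := mem_center_iff.2 fun k => Subtype.ext (by
      rw [coe_mul, coe_mul, eq_inv_of_mul_eq_one_right ((fa p).symm.trans hp)]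
      exact (hc' _ _ k.2).inv_left.eq.symm)
    rw [(Subgroup.Normal.eq_bot_or_eq_top (H := center K) inferInstance).resolve_right fun c => na
      ⟨⟨fun a b => mem_center_iff.1 (c ▸ mem_top b) a⟩⟩, mem_bot] at c
    rw [fa, c, coe_one, mul_one, ← χ.map_one] at hp
    exact Prod.ext (hχ hp) (e.symm.map_eq_one_iff.1 c)
  have cA : Nat.card (alternatingGroup (Fin 5)) = 60 := c60 ▸ Nat.card_congr e.toEquiv.symm
  set U := (χ.comp κ).range with hU
  have uu : ∀ p q, Commute (χ (κ p)) (χ (κ q)) := fun p q => ((Commute.all p q).map κ).map χ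
  let f1 := f.comp (κ.prodMap (MonoidHom.id _))
  have m1 : ∀ p, f1 p ∈ centralizer ({t} : Set G) := fun p =>
    mul_mem (mem_cent_iff.2 (ht ▸ uu _ _)) (h.K_le (e.symm p.2).2)
  have b1 : Function.Bijective (f1.codRestrict _ m1) := Function.Injective.bijective_of_nat_card_le
    (fun p q hp => (κ_inj.prodMap Function.injective_id) (inj (congrArg Subtype.val hp)))
    (by rw [cC, Nat.card_prod, cA]; simp)
  have dec : ∀ c ∈ centralizer ({t} : Set G), ∃ p, ∃ k ∈ K, c = χ (κ p) * k := fun c hc => by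
    obtain ⟨p, hp⟩ := b1.2 ⟨c, hc⟩
    exact ⟨p.1, _, (e.symm p.2).2, (congrArg Subtype.val hp).symm⟩
  have nU : ∀ π, ∀ k ∈ K, χ π * k ∈ normalizer (U : Set G) := fun π k hk => CA.Loc.mem_norm_of_conj_mem (by
    rintro _ ⟨p, rfl⟩
    obtain ⟨q, hq⟩ := κ_conj π p
    refine ⟨q, ?_⟩
    rw [MonoidHom.comp_apply, MonoidHom.comp_apply, ← hq, map_mul, map_mul, map_inv]
    conv_lhs => rw [← conj_eq_iff_commute.2 (hc' (κ p) k hk).symm]
    group)
  have cU : Nat.card U = 2 ^ 2 := by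
    rw [← Nat.card_congr (MonoidHom.ofInjective (f := χ.comp κ) (hχ.comp κ_inj)).toEquiv]; simp
  have le : U ≤ Op 2 (centralizer ({t} : Set G)) := le_Op (by rintro _ ⟨p, rfl⟩; exact mem_cent_iff.2 (ht ▸ uu _ _))
    (fun c hc => by obtain ⟨p, k, hk, rfl⟩ := dec c hc; exact nU _ k hk) (IsPGroup.of_card cU)
  have eU : Op 2 (centralizer ({t} : Set G)) = U := le_antisymm (fun o ho => by
    obtain ⟨p, k, hk, rfl⟩ := dec o (Op_le _ _ ho)
    have := O2_of_simple (Y := K) (by rw [c60]; decide) ((Op 2 (centralizer ({t} : Set G))).subgroupOf K)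
      (Subgroup.normal_subgroupOf_of_le_normalizer (h.K_le.trans (le_normalizer.trans (normalizer_le_normalizer_Op 2 _))))
      (isPGroup_subgroupOf (Op_isPGroup 2 _) K)
    have k1 : (⟨k, hk⟩ : K) ∈ (⊥ : Subgroup K) := this ▸ (by
      simpa [mem_subgroupOf] using mul_mem (inv_mem (le ⟨p, rfl⟩)) ho)
    rw [show k = 1 from congrArg Subtype.val (mem_bot.1 k1), mul_one]
    exact ⟨p, rfl⟩) le
  refine ⟨⟨(MulEquiv.ofBijective _ b1).symm⟩, eU ▸ ⟨(MulEquiv.ofBijective (f.codRestrict _ fun p => nU _ _ (e.symm p.2).2)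
    (Function.Injective.bijective_of_nat_card_le (fun p q hp => inj (congrArg Subtype.val hp)) ?_)).symm⟩⟩
  have := CA.Loc.card_le_orbit (normalizer (U : Set G)) t ((Finset.univ.erase 1).image (χ.comp κ)) fun c hc => by
    obtain ⟨p, hp⟩ := (mem_normalizer_iff.1 hc t).1 ⟨p0, ht⟩
    refine Finset.mem_image.2 ⟨p, Finset.mem_erase.2 ⟨?_, Finset.mem_univ _⟩, hp⟩
    rintro rfl
    rw [map_one, eq_comm, conj_eq_one_iff, ← ht, ← χ.map_one, ← κ.map_one] at hp
    exact h0 (κ_inj (hχ hp))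
  have c3 : ((Finset.univ.erase (1 : V4)).image (χ.comp κ)).card ≤ 3 := Finset.card_image_le.trans (by simp)
  have c4 := card_le_of_le (inf_le_right (a := normalizer (U : Set G)) (b := centralizer {t}))
  rw [Nat.card_prod, cA, nat_card_alternatingGroup]
  exact this.trans ((Nat.mul_le_mul c3 (cC ▸ c4)).trans (by simp; rfl))

namespace HJ

theorem not_conj : ¬ IsConj (γ 1) (γ 6) := fun h => by
  obtain ⟨i, hi, e⟩ := enum_C h
  exact bm.ne1 (rng_spec (show rng (fun i => neW act ALL B [WC i ++ ([1] ++ rv (WC i))] [[6]]) 0 315 3 = true by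
    decide +kernel) i (Nat.zero_le _) hi) (e.trans (wd1 6).symm)

theorem hyX : Hy id (γ 1) P := ⟨⟨fun _ _ _ _ => rfl, fun _ => id, fun y h => ⟨y, h, rfl⟩, fun _ _ => id⟩,
  ⟨fun _ _ _ _ => rfl, fun _ => id, fun y h => ⟨y, h, rfl⟩, fun _ _ => id⟩, rfl⟩

theorem tbX : TB (γ 1) (γ 2) (γ 6) (wd γ [3, 10, 9, 8]) := hyX.tb le not_conj

theorem c5382 : C5382 (γ 6) := by
  let W := fun π : Perm (Fin 4) => W4 (π 0 + 4 * π 1 + 16 * π 2)
  let χ : alternatingGroup (Fin 4) →* X := MonoidHom.mk' (fun π => wd γ (W π)) fun x y => by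
    simpa using rm.eq ((show ∀ x y : Perm (Fin 4), Perm.sign x = 1 → Perm.sign y = 1 →
      eqW act ALL B [W (x * y)] [W x, W y] = true by decide +kernel) x y x.2 y.2)
  refine tbX.c5382 (w := wd γ (8 :: (dw ++ [8]))) ⟨?_, ?_⟩ (fun h => ?_) (χ := χ)
    ((injective_iff_map_eq_one _).2 fun π h => ?_) (p0 := (Multiplicative.ofAdd 1, 1)) (by decide) ?_ fun π y hy => ?_
  · refine hyX.zd.trans (isConj_iff.2 ⟨γ 8, ?_⟩)
    rw [inv_eq_self_of_sq (sqγ 8 (by decide +kernel)), wd_cons, wd_append, wd1, mul_assoc]; rfl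
  · exact wd1 6 ▸ rm.comm (by decide +kernel)
  · exact bm.ncomm (u := 8 :: (dw ++ [8])) (v := [1]) (by decide +kernel) (wd1 1 ▸ (tbX.V_le h).1)
  · exact Subtype.ext (((show ∀ π : Perm (Fin 4), Perm.sign π = 1 → π = 1 ∨ neW act ALL B [W π] [[]] = true by
      decide +kernel) π π.2).resolve_right fun e => bm.ne1 e h)
  · exact (rm.eq1 (u := W (κ0 (Multiplicative.ofAdd 1, 1))) (v := [6]) (by decide +kernel)).trans (wd1 6)
  · obtain ⟨i, hi, rfl⟩ := enum_C hy.1
    have := rng_spec hU i (Nat.zero_le _) hi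
    rw [bor_iff, band_iff] at this
    have k := this.resolve_left fun e => bm.ncomm e (wd1 6 ▸ hy.2)
    obtain ⟨a, ha, e⟩ := anyL_spec ((show ∀ π : Perm (Fin 4), Perm.sign π = 1 → anyL [[], [6], [7], [6, 7]]
      (fun a => anyLt 3 fun j => eqW act ALL B [W π] (a :: List.replicate j [8, 9])) = true by decide +kernel) π π.2)
    obtain ⟨j, -, e⟩ := anyLt_spec e
    have e := rm.eq e
    rw [wds_cons, wds_nil, mul_one, wds_cons, wds_rep] at e
    rw [show χ π = _ from e]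
    refine Commute.mul_left ?_ ((rm.comm k.2).symm.pow_left j)
    have c7 := wd1 7 ▸ (rm.comm k.1).symm
    simp only [List.mem_cons, List.not_mem_nil, or_false] at ha
    rcases ha with rfl | rfl | rfl | rfl
    exacts [Commute.one_left _, wd1 6 ▸ hy.2.symm, wd1 7 ▸ c7, by simpa using hy.2.symm.mul_left c7]

theorem main5382 [Finite G] {Q Qs : Subgroup G} {z s t : G} (h : TH Q Qs z s 32 60) (t2 : t * t = 1) (t1 : t ≠ 1)
    (nc : ¬ IsConj z t) : C5382 t := by
  obtain ⟨φ, e, -⟩ := ident h ⟨t, t2, t1, nc⟩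
  obtain ⟨x, rfl⟩ := φ.surjective t
  obtain ⟨g, rfl⟩ := isConj_iff.1 ((tbX.cl x (φ.injective (by rw [map_mul, t2, map_one])) (by rintro rfl; simp at t1)).resolve_left
    fun c => nc (e ▸ φ.toMonoidHom.map_isConj c))
  exact (c5382.map (MulAut.conj g)).map φ

end HJ

end CA.PM

theorem CA.PM.realizeEqnsHJ5 : True := by
  have := @CA.PM.C5382.eq_1.{0}
  have := @CA.PM.C5382.eq_def.{0}
  have := @CA.PM.C5382.congr_simp.{0}
  have := @CA.PM.V4.eq_1
  have := @CA.PM.V4.eq_def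
  have := @CA.PM.V4.congr_simp
  have := @CA.PM.κ.eq_1
  have := @CA.PM.κ.eq_def
  have := @CA.PM.κ.congr_simp
  have := @CA.PM.κ0.eq_1
  have := @CA.PM.κ0.eq_def
  have := @CA.PM.κ0.congr_simp
  trivial
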