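/-
The Hall-Janko group inside a group of Conway type.
-/
import Cfsg.Agent.PM.HJ4
import Cfsg.Agent.Typ.D3

set_option autoImplicit false
set_option maxRecDepth 100000
set_option synthInstance.maxSize 100000
set_option synthInstance.maxHeartbeats 400000

namespace CA.PM.HJ

open CA.TC CA.PM CA.Fi CA.Typ Subgroup Cfsg Cfsg.Agent.Orth

variable {G : Type*} [Group G] [Finite G] {Q Qs : Subgroup G} {z s : G}

theorem exists_t (h : TH Q Qs z s 32 60) : ∃ t, t * t = 1 ∧ Commute t z ∧ ∃ q ∈ Q, (t * q) ^ 4 ≠ 1 := by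
  obtain ⟨Θ, _, M, -, hQ⟩ := exists_hy h
  refine ⟨Θ (γ 6), M.sqA 6 (by decide +kernel), mem_cent_iff.1 (M.H.mem _ (H_comm (by decide +kernel))), _,
    hQ _ (mem_gp (g := 3) (by decide +kernel)), ?_⟩
  simpa [pow_succ, mul_assoc] using M.neH (u := [[6, 3], [6, 3], [6, 3], [6, 3]]) (v := []) (by decide +kernel) (by simp)
    (by decide +kernel)

/-- the letters as products of elements of order three -/
noncomputable def t3 : ℕ → List (List ℕ) := nth [] [[], [[8, 9], [4, 5, 8, 9], [8, 5, 4, 9]], [[8, 9], [4, 3, 7, 8, 9], [6, 5, 4, 8, 9]],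
  [[8, 9], [4, 8, 5, 6, 9], [8, 5, 7, 4, 9]], [[7, 9, 8], [5, 2, 8, 7, 9], [2, 3, 7, 9]],
  [[6, 8, 9], [9, 4, 6, 5, 8], [3, 4, 6, 8]], [[8, 9], [9, 8, 6]], [[8, 9], [6, 9, 8]], [[2, 5, 9, 7], [3, 5, 7, 9, 8]],
  [[2, 4, 8, 6], [3, 4, 6, 8, 9]]]

theorem gen3 {K : Subgroup X} (h : ∀ l, Commute l (γ 1) → l ^ 3 = 1 → l ∈ K) {l : X} (hl : Commute l (γ 1)) : l ∈ K :=
  gp_le (fun g hg => by
    have := band_iff.1 (allS_spec (by decide) (show allS SH (fun g => band (eqW act ALL B [[g]] (t3 g))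
      (allL (t3 g) fun w => band (inS SH w) (eqW act ALL B (List.replicate 3 w) []))) = true by decide +kernel) hg)
    have e := rm.eq this.1
    rw [wds_cons, wds_nil, mul_one, wd1] at e
    rw [e]
    refine K.list_prod_mem fun y hy => ?_
    obtain ⟨w, hw, rfl⟩ := List.mem_map.1 hy
    have := band_iff.1 (allL_spec this.2 w hw)
    exact h _ (mem_cent_iff.1 (wd_mem (fun _ => H_comm) this.1)) (rm.pow this.2)) (mem_gp_H hl)

theorem gen12 {K : Subgroup X} (h1 : ∀ l, Commute l (γ 1) → l ∈ K) (h2 : ∀ l, Commute l (γ 2) → l ∈ K) (l : X) : l ∈ K :=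
  gp_le (fun g hg => (bor_iff.1 (allS_spec (by decide) (show allS ALL (fun g => bor (tb SH g)
    (eqW act ALL B [[g], [2]] [[2], [g]])) = true by decide +kernel) hg)).elim (fun e => h1 _ (mem_cent_iff.1 (H_comm e)))
      fun e => h2 _ (by simpa using rm.comm (u := [g]) (v := [2]) e)) (gp_top.ge (mem_top l))

theorem perf : commutator X = ⊤ := (inferInstance : (commutator X).Normal).eq_bot_or_eq_top.resolve_left fun e =>
  bm.ncomm (u := [2]) (v := [3]) (by decide +kernel) (commutatorElement_eq_one_iff_commute.1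
    (mem_bot.1 (e.le (commutator_mem_commutator (mem_top _) (mem_top _)))))

theorem splitX {D : Type*} [Group D] [Finite D] (f : D →* X) (sf : Function.Surjective f) (hc : f.ker ≤ center D)
    (hp : ∀ b ∈ f.ker, b ^ 5 = 1) : ∃ ψ : X →* D, (∀ u, f (ψ u) = u) ∧ ψ.range = commutator D := by
  haveI : Fact (Nat.Prime 5) := ⟨by decide⟩
  have o : ∀ {w}, eqW act ALL B (List.replicate 5 w) [] = true → neW act ALL B [w] [[]] = true → orderOf (wd γ w) = 5 :=
    fun a b => orderOf_eq_prime (rm.pow a) (bm.ne1 b)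
  have c := rm.comm (u := [1, 6, 9]) (v := [8, 10, 8, 10, 1, 9, 10, 8, 10]) (by decide +kernel)
  have a := rm.comm (u := [1]) (v := [1, 6, 9]) (by decide +kernel)
  have b := rm.conj (u := [1]) (z := [8, 10, 8, 10, 1, 9, 10, 8, 10]) (y := [8, 10, 8, 10, 1, 9, 10, 8, 10].reverse)
    (by decide +kernel)
  have k := card_mul_index (zpowers (wd γ [1, 6, 9]) ⊔ zpowers (wd γ [8, 10, 8, 10, 1, 9, 10, 8, 10]))
  rw [CA.Loc.card_sup_zpowers2 (o (by decide +kernel) (by decide +kernel)) (o (by decide +kernel) (by decide +kernel))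
    (by decide) c (fun ⟨i, hi⟩ => bm.ne1 (by decide +kernel) ((conj_eq_iff_commute.2 (hi ▸ a.zpow_right i)).symm.trans b)),
    card_X] at k
  rw [sqγ.rev (by decide +kernel)] at b
  exact split_cent f sf hc hp (by decide) c (conj_eq_iff_commute.2 a) b (by rw [show index _ = 24192 by omega]; decide) perf

theorem main5385 (h : TH Q Qs z s 512 174182400) {x π φ g} (E : Typ.SE h.left (Q1 := q4m) (Q2 := q4m) π φ g 5 x) :
    Nonempty (layer (centralizer (zpowers x.1 : Set G)) ≃* X) ∧ Nonempty (centralizer (((layer (centralizer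
      (zpowers x.1 : Set G))).map (Subgroup.subtype _) : Subgroup G) : Set G) ≃* alternatingGroup (Fin 5)) := by
  haveI := normal_zp x.1
  obtain ⟨S, Qs', s', T⟩ := h.sec5 E
  obtain ⟨t, t2, tz, q, hq, h4⟩ := exists_t T
  have cx : ∀ c : centralizer (zpowers x.1 : Set G), Commute c.1 x := fun c => M24.Sec.comm_B c (mem_zpowers _)
  obtain ⟨e, e1, e2⟩ := ident T ⟨t, t2, fun e => h4 (by rw [e, one_mul]; exact T.left.pow_four hq), fun k => by
    obtain ⟨c, rfl⟩ := isConj_iff.1 k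
    obtain ⟨c, rfl⟩ := QuotientGroup.mk'_surjective _ c
    obtain ⟨q, hq, rfl⟩ := hq
    refine E.not_conj rfl (by simp) (by simp) (a1 := (1, 0, 0, 0)) (a2 := (0, 1, 0, 0)) (by qdec) (cx c)
      (S.lift (c := c * ⟨z, S.zC⟩ * c⁻¹) tz) hq fun r => h4 ?_
    exact (congrArg (M24.sP _) (show (c * ⟨z, S.zC⟩ * c⁻¹ * q) ^ 4 = 1 from Subtype.ext r)).trans (map_one _)⟩
  let f := e.symm.toMonoidHom.comp (M24.sP (zpowers x.1))
  have kf : ∀ b ∈ f.ker, b.1 ∈ zpowers x.1 := fun b hb => (QuotientGroup.eq_one_iff b).1 (e.symm.map_eq_one_iff.1 hb)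
  have kc : f.ker ≤ center _ := fun b hb => mem_center_iff.2 fun c => Subtype.ext (M24.Sec.comm_B c (kf b hb))
  have k5 : ∀ b ∈ f.ker, b ^ 5 = 1 := fun b hb => Subtype.ext (by
    have := pow_card_eq_one' (x := (⟨_, kf b hb⟩ : zpowers x.1))
    rw [Nat.card_zpowers, E.ord] at this
    exact (congrArg Subtype.val this :))
  obtain ⟨ψ, hψ, rψ⟩ := splitX f (e.symm.surjective.comp (QuotientGroup.mk'_surjective _)) kc k5
  have inj : Function.Injective ψ := Function.LeftInverse.injective hψ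
  have ι := (MonoidHom.ofInjective inj).trans (MulEquiv.subgroupCongr rψ)
  haveI := ι.symm.isSimpleGroup
  haveI : Group.IsPerfect X := ⟨perf⟩
  rw [layer_eq_comm (Group.IsPerfect.ofSurjective (f := ι.toMonoidHom) ι.surjective).commutator_eq_top]
  refine ⟨⟨ι.symm⟩, ?_⟩
  rw [← rψ, ← MonoidHom.range_comp]
  set ψ' := (Subgroup.subtype _).comp ψ with hψ'
  have inj' : Function.Injective ψ' := Subtype.val_injective.comp inj
  have sψ : ∀ u, M24.sP _ (ψ u) = e u := fun u => e.symm_apply_eq.1 (hψ u)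
  have z1 : ψ' (γ 1) = z := by
    have := S.conj_lift (c := 1) (x := ψ (γ 1)) (by rw [← coe_mul, ← map_mul, es.z_sq, map_one, coe_one])
      (by rw [sψ, e1]; simp)
    rw [coe_one, one_mul, inv_one, mul_one] at this
    exact this.symm
  have h4 : ∀ d : centralizer (zpowers x.1 : Set G), d ^ 4 = 1 → ψ (f d) = d := fun d hd => by
    have m : (ψ (f d))⁻¹ * d ∈ f.ker := by rw [MonoidHom.mem_ker, map_mul, map_inv, hψ, inv_mul_cancel]
    have := (show Commute (ψ (f d)) _ from mem_center_iff.1 (kc m) _).mul_pow 5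
    rw [mul_inv_cancel_left, k5 _ m, mul_one, ← map_pow, ← map_pow, pow_succ, hd, one_mul] at this
    exact this.symm
  have c1 : ψ' (wd γ [3, 10]) * z * (ψ' (wd γ [3, 10]))⁻¹ = ψ' (γ 2) := by rw [← z1, ← g0_z, map_mul, map_mul, map_inv]
  have ci : ∀ {a b}, Commute (ψ' a) (ψ' b) → Commute a b := fun h => inj' (by simpa only [map_mul] using h.eq)
  obtain ⟨a⟩ := E.cent_L (by qdec) (r := (1, 1, 0)) (by qdec) (by qdec) (N := 60) card_q4m wg4m.index_comm (by decide)
    (A := ψ'.range) (by rintro _ ⟨u, rfl⟩; exact cx (ψ u))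
    (fun q hq => ⟨_, congrArg Subtype.val (h4 ⟨q, by rw [CA.Loc.cent_zpowers]; exact hq.2⟩
      (Subtype.ext (h.left.pow_four hq.1)))⟩) ⟨wd γ [3, 10], rfl⟩
    (by
      obtain ⟨q, hq, r⟩ := T.t_mem
      rw [c1, show γ 2 = f q from (e.symm_apply_eq.2 (r.trans e2.symm)).symm]
      exact (congrArg (·.1 ∈ Q) (h4 q (Subtype.ext (h.left.pow_four hq)))).mpr hq)
    (by rw [c1, ← z1]; exact inj'.ne (by simpa using bm.ne1 (u := [2]) (v := [1]) (by decide +kernel)))
    (by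
      rw [show ψ'.range ⊓ centralizer {z} = (centralizer {γ 1}).map ψ' from le_antisymm (by
        rintro _ ⟨⟨u, rfl⟩, hu⟩
        exact ⟨u, mem_cent_iff.2 (ci (z1 ▸ mem_cent_iff.1 hu)), rfl⟩) (by
        rintro _ ⟨u, hu, rfl⟩
        exact ⟨⟨u, rfl⟩, mem_cent_iff.2 (z1 ▸ (mem_cent_iff.1 hu).map ψ')⟩), card_map_of_injective inj', card_H]
      simp)
    (by
      rintro K hK _ ⟨u, rfl⟩ hu
      exact gen3 (K := K.comap ψ') (fun l a b => hK _ ⟨l, rfl⟩ (z1 ▸ a.map ψ') (by rw [← map_pow, b, map_one])) (ci (z1 ▸ hu)))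
    (by
      rintro K h1 h2 _ ⟨u, rfl⟩
      exact gen12 (K := K.comap ψ') (fun l a => h1 _ ⟨l, rfl⟩ (z1 ▸ a.map ψ')) (fun l a => h2 _ ⟨l, rfl⟩ (c1 ▸ a.map ψ')) u)
  exact ⟨a.trans omega4m_A5.some⟩

end CA.PM.HJ

theorem CA.PM.realizeEqnsHJ6 : True := by
  have := @CA.PM.HJ.t3.eq_1
  have := @CA.PM.HJ.t3.eq_def
  have := @CA.PM.HJ.t3.congr_simp
  trivial
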