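/-
The presented Suzuki group acts on 1782 points; upper bound for its order.
-/
import Cfsg.Agent.PM.S0
import Cfsg.Prelude.Def_Spor_Suz

set_option autoImplicit false
set_option maxRecDepth 100000

namespace CA.PM.Sz

open CA.TC CA.PM Subgroup Cfsg Cfsg.Spor

/-- the group -/
abbrev X : Type := Spor.Suz

/-- numbering of the generators -/
def gn (i : ℕ) : Suz.Gen := [Suz.Gen.a, .a, .b, .c, .d, .e, .f, .g].getD i .a

/-- numbering of the generators -/
def ix : Suz.Gen → ℕ | .a => 1 | .b => 2 | .c => 3 | .d => 4 | .e => 5 | .f => 6 | .g => 7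

/-- the letters -/
def σ (i : ℕ) : X := PresentedGroup.of (gn i)

theorem cox (i j : ℕ) : (σ i * σ j) ^ coxLabel Suz.edges (gn i) (gn j) = 1 := by
  have n : ∀ x, x ∈ coxNodes Suz.edges := fun x => by cases x <;> decide
  have : PresentedGroup.mk (coxRelators Suz.edges ∪ {r | r ∈ Suz.extra})
      ((FreeGroup.of (gn i) * FreeGroup.of (gn j)) ^ coxLabel Suz.edges (gn i) (gn j)) = 1 :=
    PresentedGroup.one_of_mem (Or.inl ⟨_, n _, _, n _, rfl⟩)
  rwa [map_pow, map_mul] at this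

theorem sqσ (S : ℕ) : Sq σ S := fun g _ => by simpa [coxLabel] using cox g g

/-- a Coxeter relator -/
def cxr (i j : ℕ) : List ℕ := (List.replicate (coxLabel Suz.edges (gn i) (gn j)) [i, j]).flatten

theorem ER_eq : ER = ((List.range 8).flatMap fun i => ((List.range 8).filter fun j => 0 < i ∧ i < j).map (cxr i)) ++
    [1 :: (List.replicate 4 [3, 4]).flatten, 1 :: (List.replicate 2 [6, 7]).flatten,
      (List.replicate 5 [1, 2, 3, 6]).flatten, (List.replicate 5 [2, 6, 7]).flatten,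
      (List.replicate 3 ((List.replicate 5 [2, 3, 4, 3, 4]).flatten ++ [5])).flatten] := by decide +kernel

theorem rel_iff {Y : Type*} [Group Y] {τ : ℕ → Y} (h1 : τ 1 * τ 1 = 1) : (∀ r ∈ ER, wd τ r = 1) ↔
    (∀ i j, 0 < i → i < j → j < 8 → (τ i * τ j) ^ coxLabel Suz.edges (gn i) (gn j) = 1) ∧
    ∀ r ∈ Suz.extra, FreeGroup.lift (fun x => τ (ix x)) r = 1 := by
  have e : ∀ y, τ 1 * y = 1 ↔ τ 1 * y⁻¹ = 1 := fun y => by
    rw [mul_inv_eq_one, mul_eq_one_iff_inv_eq, inv_eq_of_mul_eq_one_right h1]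
  rw [ER_eq, List.forall_mem_append]
  refine and_congr ⟨fun h i j a b c => ?_, fun h r hr => ?_⟩ ?_
  · have := h (cxr i j) (List.mem_flatMap.2 ⟨i, by simp; omega, List.mem_map.2 ⟨j, by simp; omega, rfl⟩⟩)
    simpa [cxr, wd_pow] using this
  · obtain ⟨i, -, hr⟩ := List.mem_flatMap.1 hr
    obtain ⟨j, hj, rfl⟩ := List.mem_map.1 hr
    simp only [List.mem_filter, List.mem_range, decide_eq_true_eq] at hj
    simpa [cxr, wd_pow] using h i j hj.2.1 hj.2.2 hj.1
  · unfold Suz.extra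
    rw [List.forall_mem_cons, List.forall_mem_cons, List.forall_mem_cons, List.forall_mem_cons,
      List.forall_mem_singleton, List.forall_mem_cons, List.forall_mem_cons, List.forall_mem_cons, List.forall_mem_cons,
      List.forall_mem_singleton, wd_cons, wd_cons τ 1, wd_pow, wd_pow, wd_pow, wd_pow, wd_pow, wd_append, wd_pow,
      e (wd τ [3, 4] ^ 4), e (wd τ [6, 7] ^ 2)]
    simp only [wd_cons, wd_nil, map_mul, map_pow, map_inv, FreeGroup.lift_apply_of, ix, mul_one, mul_assoc]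

theorem σ_ix (x : Suz.Gen) : σ (ix x) = PresentedGroup.of x := by cases x <;> rfl

theorem hER : ∀ r ∈ ER, wd σ r = 1 := (rel_iff (sqσ 2 1 rfl)).2 ⟨fun i j _ _ _ => cox i j, fun r hr => by
  have : FreeGroup.lift (fun x => σ (ix x)) = PresentedGroup.mk _ := by ext x; simp [σ_ix]; rfl
  rw [this]; exact PresentedGroup.one_of_mem (Or.inr hr)⟩

theorem tb_iff {g : ℕ} : tb 254 g = true ↔ 0 < g ∧ g < 8 := by
  by_cases h : g < 16
  · revert g; decide +kernel
  · exact ⟨fun k => absurd (lt16 (by decide) k) h, fun k => by omega⟩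

theorem exists_hom {Y : Type*} [Group Y] {τ : ℕ → Y} (sq : Sq τ 254) (h : ∀ r ∈ ER, wd τ r = 1) :
    ∃ φ : X →* Y, ∀ g, tb 254 g = true → φ (σ g) = τ g := by
  obtain ⟨h1, h2⟩ := (rel_iff (sq 1 rfl)).1 h
  have k : ∀ x, gn (ix x) = x ∧ 0 < ix x ∧ ix x < 8 := fun x => by cases x <;> decide
  refine ⟨PresentedGroup.toGroup (f := fun x => τ (ix x)) ?_, fun g hg => ?_⟩
  · rintro r (⟨x, -, y, -, rfl⟩ | hr)
    · rw [map_pow, map_mul, FreeGroup.lift_apply_of, FreeGroup.lift_apply_of]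
      rcases lt_trichotomy (ix x) (ix y) with e | e | e
      · simpa [(k _).1] using h1 _ _ (k x).2.1 e (k y).2.2
      · obtain rfl : x = y := by rw [← (k x).1, e, (k y).1]
        simpa [coxLabel] using sq _ (tb_iff.2 (k x).2)
      · have := h1 _ _ (k y).2.1 e (k x).2.2
        rw [(k _).1, (k _).1, show coxLabel Suz.edges y x = coxLabel Suz.edges x y by cases x <;> cases y <;> rfl] at this
        rw [show τ (ix x) * τ (ix y) = τ (ix x) * (τ (ix y) * τ (ix x)) * (τ (ix x))⁻¹ by group, conj_pow, this]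
        simp
    · exact h2 r hr
  · have : ix (gn g) = g := by
      have := tb_iff.1 hg
      obtain ⟨a, b⟩ := this
      interval_cases g <;> rfl
    simp [σ, this]

theorem gp_top : gp σ 254 = ⊤ := by
  rw [eq_top_iff, ← PresentedGroup.closure_range_of]
  refine (closure_le _).2 ?_
  rintro _ ⟨x, rfl⟩
  rw [← σ_ix]
  exact mem_gp (by cases x <;> rfl)

theorem tbl : Tb 254 1782 act := Tb.of_chk (by decide) tbc

theorem ER_in : allL ER (inS 254) = true := by decide +kernel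

theorem mod : Mod σ 254 1782 act := by
  obtain ⟨φ, h⟩ := exists_hom tbl.mod.sq fun r hr => (tbl.perm_eq_one (allL_spec ER_in r hr)).2 fun p hp =>
    beq_iff.1 (allL_spec (relc p hp) r hr)
  exact tbl.mod.comap (sqσ _) φ h

theorem step {C : Cert} {Rs : List (ℕ × List ℕ)} (h : C.OK) (s : Sep C 254 1782 act B)
    (hv : C.val = valS C.S act Rs ER) (r : ∀ r ∈ Rs, Rel σ act r.1 r.2) (h0 : Rel σ act C.S0 B) {m : ℕ}
    (f : Finite (gp σ C.S0) ∧ Nat.card (gp σ C.S0) ≤ m) :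
    Rel σ act C.S B ∧ Finite (gp σ C.S) ∧ Nat.card (gp σ C.S) ≤ C.n * m := by
  haveI := f.1
  have := h.card_le (sqσ _) (hv ▸ valS_spec (sqσ _) r hER)
  exact ⟨(RM.step h mod s hv (sqσ _) r r hER hER h0).rel, this.1, this.2.trans (Nat.mul_le_mul_left _ f.2)⟩

theorem main : Rel σ act 254 B ∧ Finite (gp σ 254) ∧ Nat.card (gp σ 254) ≤ 448345497600 := by
  have z : Finite (gp σ 0) ∧ Nat.card (gp σ 0) ≤ 1 := by
    have : gp σ 0 = ⊥ := le_bot_iff.1 (gp_le fun g hg => by rw [tb_eq, Nat.zero_testBit] at hg; cases hg)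
    rw [this]; exact ⟨inferInstance, card_bot.le⟩
  have r1 := step Z1_ok Z1_sep Z1_val (by simp) (Rel.zero _ _ _) z
  have r2 := step Z2_ok Z2_sep Z2_val (List.forall_mem_singleton.2 r1.1) r1.1 r1.2
  have r3 := step Z3_ok Z3_sep Z3_val (List.forall_mem_singleton.2 r2.1) r2.1 r2.2
  have r4 := step Z4_ok Z4_sep Z4_val (List.forall_mem_singleton.2 r3.1) r3.1 r3.2
  have r5 := step Z5_ok Z5_sep Z5_val (by simp) (Rel.zero _ _ _) z
  have r6 := step Z6_ok Z6_sep Z6_val (List.forall_mem_singleton.2 r5.1) r5.1 r5.2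
  exact step Z7_ok Z7_sep Z7_val (by
    simp only [List.forall_mem_cons, List.not_mem_nil, IsEmpty.forall_iff, implies_true, and_true]
    exact ⟨r3.1, r6.1, r4.1.mono (by decide +kernel), r4.1.mono (by decide +kernel), r4.1.mono (by decide +kernel)⟩)
    r4.1 r4.2

theorem bm : BM σ 254 1782 act B := ⟨mod, main.1, Z1_sep.lt⟩

instance finX : Finite X := by
  have := main.2.1
  rw [gp_top] at this
  exact Finite.of_equiv _ topEquiv.toEquiv

theorem card_le : Nat.card X ≤ 448345497600 := by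
  have := main.2.2
  rwa [gp_top, card_top] at this

end CA.PM.Sz


theorem CA.PM.realizeEqnsS1 : True := by
  have := @CA.PM.Sz.ix.eq_1
  have := @CA.PM.Sz.ix.eq_2
  have := @CA.PM.Sz.ix.eq_3
  have := @CA.PM.Sz.ix.eq_4
  have := @CA.PM.Sz.ix.eq_5
  have := @CA.PM.Sz.ix.eq_6
  have := @CA.PM.Sz.ix.eq_7
  have := @CA.PM.Sz.ix.eq_def
  have := @CA.PM.Sz.ix.congr_simp
  have := @CA.PM.Sz.X.eq_1
  have := @CA.PM.Sz.X.eq_def
  have := @CA.PM.Sz.X.congr_simp
  have := @CA.PM.Sz.cxr.eq_1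
  have := @CA.PM.Sz.cxr.eq_def
  have := @CA.PM.Sz.cxr.congr_simp
  have := @CA.PM.Sz.gn.eq_1
  have := @CA.PM.Sz.gn.eq_def
  have := @CA.PM.Sz.gn.congr_simp
  have := @CA.PM.Sz.σ.eq_1
  have := @CA.PM.Sz.σ.eq_def
  have := @CA.PM.Sz.σ.congr_simp
  trivial
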