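/-
The Suzuki chain, and the centralizer of a 2-central involution of the Suzuki group.
-/
import Cfsg.Agent.PM.S3

set_option autoImplicit false
set_option maxRecDepth 100000

namespace CA.PM.Sz

open CA.TC CA.PM CA.Fi CA.Typ Subgroup Cfsg

/-- the action on the points -/
noncomputable def I : X → ℕ → ℕ := img σ 254 act

theorem fa : FA I 1782 B := (bm.fa gp_top).1
theorem at0 : AT I σ 254 1782 act := (bm.fa gp_top).2

/-- letters for the chain -/
noncomputable def lS (g : ℕ) : X := wd σ (aSW g)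
/-- letters for the centralizer -/
noncomputable def lH (g : ℕ) : X := wd lS (aHW g)

theorem atS : AT I lS K0 1782 aS := fa.derive at0 (by decide) aS_1 aS_2
theorem atH : AT I lH SH 1782 aH := fa.derive atS (by decide) aH_1 aH_2
theorem bmS : BM lS K0 1782 aS B := fa.bm atS
theorem bmH : BM lH SH 1782 aH B := fa.bm atH
theorem rmH {S : ℕ} (h : sub S SH = true) : RM lH S 1782 aH B := bmH.rm.mono h

theorem lS_σ {g : ℕ} (h : tb 254 g = true) : lS g = σ g := by
  have : aSW g = [g] := leq_spec (allS_spec (S := 254) (f := fun g => leq (aSW g) [g]) (by decide) (by decide +kernel) h)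
  rw [lS, this, wd_one]

theorem wd_lS {w : List ℕ} (h : inS 254 w = true) : wd lS w = wd σ w := wd_congr (fun _ => lS_σ) h

theorem lH_σ {g k : ℕ} (h : band (tb 254 k) (leq (aHW g) [k]) = true) : lH g = σ k := by
  rw [lH, leq_spec (band_iff.1 h).2, wd_one, lS_σ (band_iff.1 h).1]

theorem lH1 : lH 1 = σ 1 := lH_σ (by decide +kernel)
theorem wH1 : wd lH [1] = σ 1 := (wd_one _ _).trans lH1

/-! ### the chain -/

theorem low4 {D : Subgroup X} (h : ∀ g, tb K4 g = true → lS g ∈ D) :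
    168 ≤ Nat.card (D ⊓ fa.sts [1694, 1320, 1781, 0] : Subgroup X) :=
  bmS.le_card_en bmS.ltB (by decide +kernel) T4_ok fun g hg =>
    ⟨h g hg, fa.gp_sts (atS.mono (by decide +kernel)) (by decide) (by decide +kernel) (mem_gp hg)⟩

theorem low3 {D : Subgroup X} (h : ∀ g, tb K3 g = true → lS g ∈ D) : 36 * Nat.card (D ⊓ fa.sts [1694, 1320, 1781, 0] :
    Subgroup X) ≤ Nat.card (D ⊓ fa.sts [1320, 1781, 0] : Subgroup X) :=
  fa.lev_ge (atS.mono (by decide +kernel)) (by decide) h T3_ok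

theorem low2 {D : Subgroup X} (h : ∀ g, tb K2 g = true → lS g ∈ D) : 100 * Nat.card (D ⊓ fa.sts [1320, 1781, 0] :
    Subgroup X) ≤ Nat.card (D ⊓ fa.sts [1781, 0] : Subgroup X) :=
  fa.lev_ge (atS.mono (by decide +kernel)) (by decide) h T2_ok

theorem low1 {D : Subgroup X} (h : ∀ g, tb K1 g = true → lS g ∈ D) : 416 * Nat.card (D ⊓ fa.sts [1781, 0] :
    Subgroup X) ≤ Nat.card (D ⊓ fa.sts [0] : Subgroup X) :=
  fa.lev_ge (atS.mono (by decide +kernel)) (by decide) h T1_ok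

theorem chain : Nat.card X = 448345497600 ∧ Nat.card (fa.sts [0]) ≤ 251596800 ∧ Nat.card (fa.sts [1781, 0]) ≤ 604800 ∧
    Nat.card (fa.sts [1320, 1781, 0]) ≤ 6048 ∧ Nat.card (fa.sts [1694, 1320, 1781, 0]) ≤ 168 := by
  have h0 := fa.lev_ge (D := ⊤) atS (by decide) (fun _ _ => mem_top _) T0_ok
  have h1 := low1 (D := ⊤) fun _ _ => mem_top _
  have h2 := low2 (D := ⊤) fun _ _ => mem_top _
  have h3 := low3 (D := ⊤) fun _ _ => mem_top _
  have h4 := low4 (D := ⊤) fun _ _ => mem_top _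
  have h5 := card_le
  rw [fa.sts_nil] at h0
  simp only [top_inf_eq, card_top] at h0 h1 h2 h3 h4
  omega

theorem card_X : Nat.card X = 448345497600 := chain.1

theorem st_eq {S m : ℕ} {L : List ℕ} (hS : sub S K0 = true) (h : allS S (fun g => fixB aS L [g]) = true)
    (h1 : Nat.card (fa.sts L) ≤ m) (h2 : m ≤ Nat.card (gp lS S ⊓ fa.sts L : Subgroup X)) :
    fa.sts L = gp lS S ∧ Nat.card (gp lS S) = m := by
  have le := fa.gp_sts (atS.mono hS) (sub_lt hS (by decide)) h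
  rw [inf_eq_left.2 le] at h2
  have := eq_of_le_of_card_ge le (h1.trans h2)
  exact ⟨this.symm, le_antisymm (this ▸ h1) h2⟩

theorem mK {S T : ℕ} (h : sub S T = true) (g : ℕ) (hg : tb S g = true) : lS g ∈ gp lS T := mem_gp (tb_sub h hg)

theorem st4 : fa.sts [1694, 1320, 1781, 0] = gp lS K4 ∧ Nat.card (gp lS K4) = 168 :=
  st_eq (by decide +kernel) (by decide +kernel) chain.2.2.2.2 (low4 fun _ => mem_gp)

theorem st3 : fa.sts [1320, 1781, 0] = gp lS K3 ∧ Nat.card (gp lS K3) = 6048 :=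
  st_eq (by decide +kernel) (by decide +kernel) chain.2.2.2.1 (by
    have := low3 (D := gp lS K3) fun _ => mem_gp
    have := low4 (mK (T := K3) (by decide +kernel))
    omega)

theorem st2 : fa.sts [1781, 0] = gp lS K2 ∧ Nat.card (gp lS K2) = 604800 :=
  st_eq (by decide +kernel) (by decide +kernel) chain.2.2.1 (by
    have := low2 (D := gp lS K2) fun _ => mem_gp
    have := low3 (mK (T := K2) (by decide +kernel))
    have := low4 (mK (T := K2) (by decide +kernel))
    omega)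

theorem st1 : fa.sts [0] = gp lS K1 ∧ Nat.card (gp lS K1) = 251596800 :=
  st_eq (by decide +kernel) (by decide +kernel) chain.2.1 (by
    have := low1 (D := gp lS K1) fun _ => mem_gp
    have := low2 (mK (T := K1) (by decide +kernel))
    have := low3 (mK (T := K1) (by decide +kernel))
    have := low4 (mK (T := K1) (by decide +kernel))
    omega)

theorem lv0 {D : Subgroup X} {P : ℕ → Bool} {m : ℕ} (h : cnt P 1782 5 = m) (hP : ∀ x ∈ D, P (I x 0) = true) :
    Nat.card D ≤ m * Nat.card (D ⊓ gp lS K1 : Subgroup X) := by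
  have := fa.lev_le (L := []) (by decide) (by decide) h fun x hx _ => hP x hx
  rwa [fa.sts_nil, inf_top_eq, st1.1] at this

theorem lvG {D : Subgroup X} {P : ℕ → Bool} {m b S S' : ℕ} {L : List ℕ} {f : ℕ → ℕ} (hb : b < 1782)
    (hS : sub S K0 = true) (e : fa.sts L = gp lS S) (e' : fa.sts (b :: L) = gp lS S')
    (hf : ∀ p < 1782, invChk S aS f p = true) (h : cnt (fun q => band (Nat.beq (f q) (f b)) (P q)) 1782 5 = m)
    (hP : ∀ x ∈ D, P (I x b) = true) : Nat.card (D ⊓ gp lS S : Subgroup X) ≤ m * Nat.card (D ⊓ gp lS S' : Subgroup X) := by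
  rw [← e, ← e']
  exact fa.lev_le hb (by decide) h fun x hx hs => band_iff.2
    ⟨beq_iff.2 (fa.lab (atS.mono hS) (sub_lt hS (by decide)) hf (e ▸ hs) hb), hP x hx⟩

theorem lv1 {D : Subgroup X} {P : ℕ → Bool} {m : ℕ} (h : cnt (fun q => band (Nat.beq (f1 q) (f1 1781)) (P q)) 1782 5 = m)
    (hP : ∀ x ∈ D, P (I x 1781) = true) :
    Nat.card (D ⊓ gp lS K1 : Subgroup X) ≤ m * Nat.card (D ⊓ gp lS K2 : Subgroup X) :=
  lvG (by decide) (by decide +kernel) st1.1 st2.1 f1_ok h hP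

theorem lv2 {D : Subgroup X} {P : ℕ → Bool} {m : ℕ} (h : cnt (fun q => band (Nat.beq (f2 q) (f2 1320)) (P q)) 1782 5 = m)
    (hP : ∀ x ∈ D, P (I x 1320) = true) :
    Nat.card (D ⊓ gp lS K2 : Subgroup X) ≤ m * Nat.card (D ⊓ gp lS K3 : Subgroup X) :=
  lvG (by decide) (by decide +kernel) st2.1 st3.1 f2_ok h hP

theorem lv3 {D : Subgroup X} {P : ℕ → Bool} {m : ℕ} (h : cnt (fun q => band (Nat.beq (f3 q) (f3 1694)) (P q)) 1782 5 = m)
    (hP : ∀ x ∈ D, P (I x 1694) = true) :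
    Nat.card (D ⊓ gp lS K3 : Subgroup X) ≤ m * Nat.card (D ⊓ gp lS K4 : Subgroup X) :=
  lvG (by decide) (by decide +kernel) st3.1 st4.1 f3_ok h hP

theorem enum4 {x : X} (hx : x ∈ gp lS K4) : ∃ i < 168, inS K4 (T4 i) = true ∧ wd lS (T4 i) = x :=
  bmS.enum bmS.ltB (by decide +kernel) T4_ok (fun _ => mem_gp) st4.2.le hx

theorem dec3 {x : X} (hx : x ∈ gp lS K3) : ∃ i < 168, ∃ j < 36, inS K3 (T4 i ++ T3 j) = true ∧ wd lS (T4 i ++ T3 j) = x := by
  obtain ⟨j, hj, h, k, hk, rfl⟩ := fa.lev_dec (D := ⊤) (atS.mono (T := K3) (by decide +kernel)) (by decide)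
    (fun _ _ => mem_top _) T3_ok (by rw [top_inf_eq, top_inf_eq, st3.1, st4.1, st3.2, st4.2]) ⟨mem_top x, st3.1 ▸ hx⟩
  obtain ⟨i, hi, h', rfl⟩ := enum4 (st4.1 ▸ hk.2)
  exact ⟨i, hi, j, hj, inS_append.2 ⟨inS_sub (by decide +kernel) h', h⟩, wd_append _ _ _⟩

/-! ### the centralizer of `a` -/

theorem cent_le : Nat.card (centralizer ({σ 1} : Set X)) ≤ 3317760 := by
  have k : ∀ b < 1782, Nat.beq (aS 1 b) b = true → ∀ x ∈ centralizer ({σ 1} : Set X),
      Nat.beq (aS 1 (I x b)) (I x b) = true := fun b hb e x hx => by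
    rw [beq_iff, ← atS.eq 1 (by decide +kernel) _ (by first | exact hb | exact fa.lt x b hb), lS_σ rfl] at *
    exact fa.fix_comm (mem_cent_iff.1 hx) hb e
  have h0 := lv0 (P := fun q => Nat.beq (aS 1 q) q) (m := 54) (by decide +kernel) (k 0 (by decide) (by decide +kernel))
  have h1 := lv1 (P := fun q => Nat.beq (aS 1 q) q) (m := 32) (by decide +kernel) (k _ (by decide) (by decide +kernel))
  have h2 := lv2 (P := fun q => Nat.beq (aS 1 q) q) (m := 20) (by decide +kernel) (k _ (by decide) (by decide +kernel))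
  have h3 := lv3 (P := fun q => Nat.beq (aS 1 q) q) (m := 12) (by decide +kernel) (k _ (by decide) (by decide +kernel))
  have h4 := bmS.class_ge' bmS.ltB (T := K4) (by decide +kernel) (fun _ => mem_gp) C4_in C4_ok
  rw [st4.2, wd_one, lS_σ rfl, inf_comm] at h4
  omega

theorem H_comm {g : ℕ} (hg : tb SH g = true) : lH g ∈ centralizer ({σ 1} : Set X) := by
  have := bmH.rm.comm (allS_spec (f := fun g => eqW aH SH B [[g], [1]] [[1], [g]]) (by decide) (by decide +kernel) hg)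
  rwa [wH1, wd_one, ← mem_cent_iff] at this

theorem H_le {S : ℕ} (h : sub S SH = true) : gp lH S ≤ centralizer {σ 1} := gp_le fun _ hg => H_comm (tb_sub h hg)

theorem cent_a : centralizer ({σ 1} : Set X) = gp lH SH ∧ Nat.card (centralizer ({σ 1} : Set X)) = 3317760 := by
  have m : ∀ g, tb SH g = true → lH g ∈ gp lH SH := fun _ => mem_gp
  have h0 := fa.lev_ge atH (by decide) m V0_ok
  have h1 := fa.lev_ge atH (by decide) m V1_ok
  have h2 := fa.lev_ge atH (by decide) m V2_ok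
  have h3 := fa.lev_ge atH (by decide) m V3_ok
  have h4 := fa.lev_ge atH (by decide) m V4_ok
  have h5 : 0 < Nat.card (gp lH SH ⊓ fa.sts [2, 1694, 1320, 1781, 0] : Subgroup X) := Nat.card_pos
  rw [fa.sts_nil, inf_top_eq] at h0
  have h6 := cent_le
  have h7 : 3317760 ≤ Nat.card (gp lH SH) := by omega
  have := eq_of_le_of_card_ge (H_le (sub_refl _)) (h6.trans h7)
  exact ⟨this.symm, le_antisymm h6 (this ▸ h7)⟩

theorem H_wd {x : X} (hx : Commute x (σ 1)) : ∃ w, inS SH w = true ∧ wd lH w = x :=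
  bmH.sq.exists_wd (cent_a.1 ▸ mem_cent_iff.2 hx)

/-- the extraspecial subgroup -/
noncomputable abbrev Q0 : Subgroup X := gp lH SQ

theorem a_ne : σ 1 ≠ 1 := wH1 ▸ bmH.ne1 (v := []) (by decide +kernel)

theorem cent_Q {x : X} (hx : ∀ g, tb SQ g = true → Commute (lH g) x) : x = 1 ∨ x = σ 1 := by
  have h0 := bmH.cc Y0_ok
  have h1 := bmH.cc Y1_ok
  have h2 := bmH.cc Y2_ok
  have h3 := bmH.cc Y3_ok
  have h4 := bmH.cc Y4_ok
  have h5 := bmH.cc Y5_ok
  rw [cW_one, wH1, cent_a.2] at h0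
  have c : Nat.card (cW lH [[7], [6], [5], [4], [3], [2], [1]]) ≤ 2 := by omega
  have m : ∀ x, (∀ g, tb SQ g = true → Commute (lH g) x) → x ∈ cW lH [[7], [6], [5], [4], [3], [2], [1]] := fun x hx => by
    simp only [mem_cW, List.forall_mem_cons, wd_one, List.not_mem_nil, IsEmpty.forall_iff, implies_true, and_true]
    refine ⟨?_, ?_, ?_, ?_, ?_, ?_, ?_⟩ <;> exact (hx _ (by decide +kernel)).symm
  have o : orderOf (σ 1) = 2 := orderOf_eq_prime (by rw [pow_two]; exact sqσ 2 1 rfl) a_ne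
  have e := eq_of_le_of_card_ge ((zpowers_le (g := σ 1)).2 (m _ fun g hg =>
    mem_cent_iff.1 (H_comm (tb_sub (by decide +kernel) hg)))) (by rw [Nat.card_zpowers, o]; exact c)
  exact (mem_zpowers_iff_of_sq (sqσ 2 1 rfl)).1 (e ▸ m x hx)

theorem a_mem : σ 1 ∈ Q0 := lH1 ▸ mem_gp (by decide +kernel)

theorem es : ES Q0 (σ 1) := by
  refine es_of_gens a_mem a_ne (sqσ 2 1 rfl) (fun g hg => mem_cent_iff.1 (H_comm (tb_sub (by decide +kernel) hg)))
    (fun g hg k hk => ?_) (fun x _ => cent_Q) ⟨lH 2, mem_gp (by decide +kernel), ?_, ?_⟩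
  · have := allS_spec (by decide) (allS_spec (S := SQ) (f := fun g => allS SQ fun k => bor (eqW aH SH B [[g], [k]] [[k], [g]])
      (eqW aH SH B [[g], [k]] [[k], [g], [1]])) (by decide) (by decide +kernel) hg) hk
    refine (bor_iff.1 this).imp (fun e => by simpa using bmH.rm.comm e) fun e => ?_
    simpa [lH1, mul_assoc] using bmH.rm.eq e
  · simpa using bmH.ne1 (u := [2]) (v := []) (by decide +kernel)
  · simpa [lH1] using bmH.ne1 (u := [2]) (v := [1]) (by decide +kernel)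

theorem le : LE Q0 (σ 1) := by
  refine ⟨es, fun c hc => ?_, fun c hc x hx => ?_⟩
  · rcases cent_Q fun g hg => (hc _ (mem_gp hg)).symm with rfl | rfl
    exacts [one_mem _, a_mem]
  · have : gp lH SH ≤ normalizer (Q0 : Set X) := gp_le fun g hg => conj_mem_gp fun q hq => by
      have := allS_spec (by decide) (allS_spec (S := SH) (f := fun g => allS SQ fun q =>
        band (eqW aH SH B [[g], [q]] [cq g q, [g]]) (inS SQ (cq g q))) (by decide) (by decide +kernel) hg) hq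
      rw [band_iff] at this
      have e := bmH.rm.conj this.1
      rw [wd_one, wd_one] at e
      exact e ▸ wd_mem_gp this.2
    exact (mem_normalizer_iff.1 (this (cent_a.1 ▸ mem_cent_iff.2 hc)) x).1 hx

theorem enum_Q {x : X} (hx : x ∈ Q0) : ∃ i < 128, inS SQ (WQ i) = true ∧ wd lH (WQ i) = x := by
  obtain ⟨i, hi, h, k, hk, rfl⟩ := (rmH (by decide +kernel)).cov (by decide) (by decide) (by decide +kernel) WQ_ok hx
  rw [gp_zero, mem_bot] at hk
  exact ⟨i, hi, h, by rw [hk, one_mul]⟩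

theorem card_Q : Nat.card Q0 = 128 :=
  le_antisymm (card_le_of_enum (F := fun i => wd lH (WQ i)) fun _ hx => (enum_Q hx).imp fun _ h => ⟨h.1, h.2.2⟩).2
    (bmH.le_card_en bmH.ltB (by decide +kernel) EQ_ok fun _ => mem_gp)

theorem lH2 : lH 2 = σ 3 := lH_σ (by decide +kernel)
theorem lH8 : lH 8 = σ 5 := lH_σ (by decide +kernel)

theorem g0_a : wd lS g0w * σ 1 * (wd lS g0w)⁻¹ = σ 3 := by
  simpa [lS_σ (g := 1) rfl, lS_σ (g := 3) rfl] using bmS.rm.conj (u := g0w) (z := [1]) (y := [3]) (by decide +kernel)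

theorem g1_a : IsConj (σ 1) (lH 9) := isConj_iff.2 ⟨wd lS g1w, by
  simpa [lS_σ (g := 1) rfl, lH] using bmS.rm.conj (u := g1w) (z := [1]) (y := aHW 9) (by decide +kernel)⟩

/-- the conjugate extraspecial subgroup -/
noncomputable def Qs : Subgroup X := Q0.map (MulAut.conj (wd lS g0w)).toMonoidHom

theorem th : TH Q0 Qs (σ 1) (σ 3) 128 25920 := by
  have := TH_mk le (g := wd lS g0w) card_Q (by decide) (N := 25920) cent_a.2
    (by rw [g0_a, ← lH2]; exact mem_gp (by decide +kernel))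
    (by rw [g0_a, ← lH2, ← lH1]; simpa using bmH.ne1 (u := [2]) (v := [1]) (by decide +kernel))
  rwa [g0_a] at this

/-! ### a Sylow 2-subgroup -/

theorem cov_T {x : X} (hx : x ∈ gp lH ST) : ∃ i < 64, inS ST (WT i) = true ∧ ∃ k ∈ Q0, x = k * wd lH (WT i) :=
  (rmH (by decide +kernel)).cov (by decide) (by decide) (by decide +kernel) WT_ok hx

theorem card_T : Nat.card (gp lH ST) = 8192 := by
  have m : ∀ g, tb ST g = true → lH g ∈ gp lH ST := fun _ => mem_gp
  have t : AT I lH ST 1782 aH := atH.mono (by decide +kernel)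
  have h0 := fa.lev_ge t (by decide) m U0_ok
  have h1 := fa.lev_ge t (by decide) m U1_ok
  have h2 := fa.lev_ge t (by decide) m U2_ok
  have h3 := fa.lev_ge t (by decide) m U3_ok
  have h4 := fa.lev_ge t (by decide) m U4_ok
  have h5 : 0 < Nat.card (gp lH ST ⊓ fa.sts [2, 1694, 1320, 1781, 0] : Subgroup X) := Nat.card_pos
  rw [fa.sts_nil, inf_top_eq] at h0
  have h6 := (card_le_of_cov (F := fun i => wd lH (WT i)) fun _ hx => (cov_T hx).imp fun _ h => ⟨h.1, h.2.2⟩).2
  rw [card_Q] at h6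
  omega

theorem into_T {x : X} (hx : Commute x (σ 1)) {k : ℕ} (h : x ^ 2 ^ k = 1) :
    ∃ g, Commute g (σ 1) ∧ g⁻¹ * x * g ∈ gp lH ST := by
  have le := H_le (S := ST) (by decide +kernel)
  obtain ⟨g, hg⟩ := exists_conj_of_odd ((gp lH ST).subgroupOf (centralizer {σ 1})) _
    (isP_zpowers (p := 2) (k := k) (x := (⟨x, mem_cent_iff.2 hx⟩ : centralizer ({σ 1} : Set X))) (Subtype.ext h)) (by
      have := card_mul_index ((gp lH ST).subgroupOf (centralizer {σ 1}))
      rw [Nat.card_congr (subgroupOfEquivOfLe le).toEquiv, card_T, cent_a.2] at this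
      omega)
  exact ⟨g, mem_cent_iff.1 g.2, hg _ (mem_zpowers _)⟩

theorem pow_mem {k w : X} (hk : k ∈ Q0) (hw : Commute w (σ 1)) (n : ℕ) : (k * w) ^ n * (w ^ n)⁻¹ ∈ Q0 := by
  induction n with
  | zero => simp
  | succ n ih =>
    have := mul_mem hk (le.norm w hw _ ih)
    convert this using 1
    rw [pow_succ', pow_succ' w]
    group

theorem pow4 {y : X} (hy : Commute y (σ 1)) (h : y ^ 8 = 1) : y ^ 4 ∈ Q0 := by
  obtain ⟨g, hg, e⟩ := into_T hy (k := 3) h
  obtain ⟨i, hi, h1, k, hk, e⟩ := cov_T e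
  have c := rng_spec (show rng (fun i => band (inS SQ (p4 i)) (eqW aH SH B (List.replicate 4 (WT i)) [p4 i])) 0 64 0 = true by
    decide +kernel) i (Nat.zero_le _) hi
  rw [band_iff] at c
  have c2 := bmH.rm.eq c.2
  rw [wds_rep, wds_cons, wds_nil, mul_one] at c2
  have := pow_mem hk (mem_cent_iff.1 (H_le (by decide +kernel) (wd_mem_gp h1))) 4
  rw [← e, c2, mul_mem_cancel_right (inv_mem (wd_mem_gp c.1))] at this
  convert le.norm g hg _ this using 1
  rw [← conj_pow]
  group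

theorem hT : rng (fun i => bor (anyS SQ fun q => band (neW aH SH B [WT i, WT i, [q]] [[q], WT i, WT i])
      (neW aH SH B [WT i, WT i, [q]] [[q], WT i, WT i, [1]]))
    (band (band (blt (hr i) 3) (inS SQ (hq i))) (eqW aH SH B [WT i, hq i, ht i] [ht i, nth [] [[], [9], [8]] (hr i)])))
    0 64 0 = true := by decide +kernel

theorem hI : rng (fun i => frc (Nat.land i 127) fun j => (fun r => bor (neW aH SH B [WQ j, r, WQ j, r] [])
    (bor (eqW aH SH B [WQ j, r] []) (bor (eqW aH SH B [WQ j, r] [[1]]) (band (anyL [2, 9, 8] (Nat.beq (ir i)))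
      (eqW aH SH B [iw i, [ir i]] [WQ j, r, iw i]))))) (nth [] [[], [9], [8]] (Nat.shiftRight i 7))) 0 384 3 = true := by
  decide +kernel

/-- the involutions of the centralizer -/
theorem inv_H {x : X} (hx : Commute x (σ 1)) (h2 : x * x = 1) : x = 1 ∨ x = σ 1 ∨
    ∃ g, Commute g (σ 1) ∧ ∃ t ∈ [2, 9, 8], g * lH t * g⁻¹ = x := by
  have cj : ∀ {g y : X}, Commute g (σ 1) → (y = 1 ∨ y = σ 1 ∨ ∃ g, Commute g (σ 1) ∧ ∃ t ∈ [2, 9, 8], g * lH t * g⁻¹ = y) →
      g * y * g⁻¹ = 1 ∨ g * y * g⁻¹ = σ 1 ∨ ∃ h, Commute h (σ 1) ∧ ∃ t ∈ [2, 9, 8], h * lH t * h⁻¹ = g * y * g⁻¹ := by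
    rintro g y hg (rfl | rfl | ⟨h, hh, t, ht, rfl⟩)
    · simp
    · simp [hg.eq]
    · exact Or.inr (Or.inr ⟨g * h, hg.mul_left hh, t, ht, by group⟩)
  have cw : ∀ {w}, inS SH w = true → Commute (wd lH w) (σ 1) := fun h => mem_cent_iff.1 (H_le (sub_refl _) (wd_mem_gp h))
  obtain ⟨g, hg, e⟩ := into_T hx (k := 1) (by rw [← h2, ← pow_two]; rfl)
  rw [show x = g * (g⁻¹ * x * g) * g⁻¹ by group]
  refine cj hg ?_
  have y2 : g⁻¹ * x * g * (g⁻¹ * x * g) = 1 := by
    calc _ = g⁻¹ * (x * x) * g := by group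
      _ = 1 := by rw [h2]; group
  generalize g⁻¹ * x * g = y at e y2
  obtain ⟨i, hi, h1, k, hk, rfl⟩ := cov_T e
  have h1' : inS SH (WT i) = true := inS_sub (by decide +kernel) h1
  rcases bor_iff.1 (rng_spec hT i (Nat.zero_le _) hi) with c | c
  · obtain ⟨q, hq, c⟩ := anyS_spec c
    have := pow_mem hk (cw h1') 2
    rw [pow_two, y2, one_mul, inv_mem_iff, pow_two] at this
    rcases es.comm _ this _ (mem_gp hq) with r | r
    · exact absurd (by simpa [mul_assoc] using r.eq) (bmH.ne (band_iff.1 c).1)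
    · exact absurd (by simpa [mul_assoc, lH1] using r) (bmH.ne (band_iff.1 c).2)
  rw [band_iff, band_iff, blt_iff] at c
  obtain ⟨⟨c1, c2⟩, c3⟩ := c
  have i1 := eqW_inS' c3 _ List.mem_cons_self
  have c4 := bmH.rm.eq c3
  simp only [wds_cons, wds_nil, mul_one] at c4
  generalize hr i = r at c1 c4
  obtain ⟨j, hj, -, e⟩ := enum_Q (le.norm _ (cw i1).inv_left _ (mul_mem hk (le.norm _ (cw h1') _ (inv_mem (wd_mem_gp c2)))))
  have e2 : k * wd lH (WT i) = wd lH (ht i) * (wd lH (WQ j) * wd lH (nth [] [[], [9], [8]] r)) * (wd lH (ht i))⁻¹ := by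
    rw [e, eq_inv_mul_iff_mul_eq.2 c4.symm]
    group
  rw [e2] at y2 ⊢
  refine cj (cw i1) ?_
  have c := rng_spec hI (128 * r + j) (Nat.zero_le _) (by omega)
  rw [frc_eq, show Nat.land (128 * r + j) 127 = j from (Nat.and_two_pow_sub_one_eq_mod _ 7).trans (by omega),
    show Nat.shiftRight (128 * r + j) 7 = r from (Nat.shiftRight_eq_div_pow _ 7).trans (by omega)] at c
  simp only [bor_iff, band_iff] at c
  rcases c with c | c | c | ⟨c, c'⟩
  · refine absurd ?_ (bmH.ne c)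
    rw [conj_mul, conj_eq_one_iff] at y2
    simpa [mul_assoc] using y2
  · exact Or.inl (by simpa using bmH.rm.eq c)
  · exact Or.inr (Or.inl (by simpa [lH1] using bmH.rm.eq c))
  · obtain ⟨t, ht, c⟩ := anyL_spec c
    rw [beq_iff.1 c] at c'
    refine Or.inr (Or.inr ⟨_, cw (eqW_inS c' _ List.mem_cons_self), t, ht, ?_⟩)
    have := bmH.rm.eq c'
    simp only [wds_cons, wds_nil, mul_one, wd_one] at this
    rw [this]
    group

theorem conj_c : IsConj (σ 1) (lH 2) := isConj_iff.2 ⟨_, lH2 ▸ g0_a⟩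

/-- two classes of involutions -/
theorem inv_X {x : X} (h2 : x * x = 1) (h1 : x ≠ 1) : IsConj (σ 1) x ∨ IsConj (σ 5) x := by
  obtain ⟨g, hg⟩ := conj_into le (isP_zpowers (p := 2) (k := 1) (x := x) (by rw [← h2, ← pow_two]; rfl))
  have c : IsConj (g⁻¹ * x * g) x := isConj_iff.2 ⟨g, by group⟩
  rcases inv_H (hg x (mem_zpowers x)) (by
    calc _ = g⁻¹ * (x * x) * g := by group
      _ = 1 := by rw [h2]; group) with e | e | ⟨h, -, t, ht, e⟩
  · rw [e] at c; exact absurd (isConj_one_right.1 c) h1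
  · exact Or.inl (e ▸ c)
  · have c' := (isConj_iff.2 ⟨h, e⟩).trans c
    simp only [List.mem_cons, List.not_mem_nil, or_false] at ht
    rcases ht with rfl | rfl | rfl
    exacts [Or.inl (conj_c.trans c'), Or.inl (g1_a.trans c'), Or.inr (lH8 ▸ c')]

theorem e_nQ : σ 5 ∉ Q0 := fun h => by
  rw [← lH8] at h
  rcases es.comm _ h (lH 5) (mem_gp (by decide +kernel)) with r | r
  · exact bmH.ncomm (u := [8]) (v := [5]) (by decide +kernel) (by simpa using r)
  · exact bmH.ne (u := [[8, 5]]) (v := [[5, 8, 1]]) (by decide +kernel) (by simpa [mul_assoc, lH1] using r)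

theorem x8_pow : wd lH x8 ^ 4 = σ 1 := by
  rw [← wds_rep, ← wH1]; simpa using bmH.rm.eq (u := List.replicate 4 x8) (v := [[1]]) (by decide +kernel)

theorem x8_e : Commute (wd lH x8) (σ 5) := by
  simpa [lH8] using bmH.rm.comm (u := x8) (v := [8]) (by decide +kernel)

theorem not_conj : ¬ IsConj (σ 1) (σ 5) :=
  LE.not_conj le (by rw [card_Q]; decide) (fun _ => pow4) x8_pow x8_e e_nQ

theorem conj_mul_a {x : X} (h1 : IsConj (σ 1) x) (h2 : Commute x (σ 1)) (h3 : x ≠ σ 1) : IsConj (σ 1) (x * σ 1) := by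
  obtain ⟨g, hg⟩ := isConj_iff.1 h1
  rcases inv_H h2 (by rw [← hg, conj_mul, sqσ 2 1 rfl]; simp) with e | e | ⟨h, hh, t, ht, rfl⟩
  · rw [e] at h1; exact absurd (isConj_one_left.1 h1) a_ne
  · exact absurd e h3
  have c : IsConj (lH t * σ 1) (h * lH t * h⁻¹ * σ 1) := isConj_iff.2 ⟨h, by
    rw [mul_assoc _ h⁻¹, hh.inv_left.eq]; group⟩
  simp only [List.mem_cons, List.not_mem_nil, or_false] at ht
  rcases ht with rfl | rfl | rfl
  · refine conj_c.trans (IsConj.trans (isConj_iff.2 ⟨lH 5, ?_⟩) c)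
    simpa [lH1] using bmH.rm.conj (u := [5]) (z := [2]) (y := [2, 1]) (by decide +kernel)
  · refine g1_a.trans (IsConj.trans (isConj_iff.2 ⟨wd lH [14, 2], ?_⟩) c)
    simpa [lH1] using bmH.rm.conj (u := [14, 2]) (z := [9]) (y := [9, 1]) (by decide +kernel)
  · exact absurd (h1.trans (isConj_iff.2 ⟨h⁻¹, by rw [lH8]; group⟩)) not_conj

/-- the central element of order 3 -/
noncomputable def u0 : X := σ 4 * lH 12

theorem cent_u : Nat.card (centralizer {σ 1} ⊓ centralizer {u0} : Subgroup X) ≤ 3456 := by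
  have h := bmH.cc Yu_ok
  rw [cW_one, wH1, cent_a.2] at h
  have : centralizer {σ 1} ⊓ centralizer {u0} = cW lH [[11, 12], [1]] := by
    ext x; simp [mem_cW, mem_cent_iff, lH1, u0, lH_σ (g := 11) (k := 4) (by decide +kernel), and_comm]
  rw [this]
  omega

theorem gp_G : gp lH SH ≤ gp lH SG := gp_le fun g hg => by
  have := allS_spec (f := fun g => band (inS SG (wG g)) (eqW aH SH B [[g]] [wG g])) (by decide) (by decide +kernel) hg
  rw [band_iff] at this
  rw [← wd_one lH g, bmH.rm.eq1 this.2]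
  exact wd_mem_gp this.1

theorem norm13 {Y : Subgroup X} (h : Nat.card Y = 13) : ¬ 11 ∣ Nat.card (normalizer (Y : Set X)) := by
  haveI : Fact (Nat.Prime 13) := ⟨by decide⟩
  have o : orderOf (wd lS x13) = 13 := orderOf_eq_prime (bmS.rm.pow (by decide +kernel))
    (bmS.ne1 (v := []) (by decide +kernel))
  obtain ⟨g, rfl⟩ := CA.Loc.conj_of_card (p := 13) (k := 1) (by decide) (by rw [card_X]; decide) (zpowers (wd lS x13)) Y
    (by rw [Nat.card_zpowers, o]; rfl) h
  rw [← map_equiv_normalizer_eq, CA.Loc.card_map_conj]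
  have i : inS K0 x13 = true := by decide +kernel
  have : normalizer (zpowers (wd lS x13) : Set X) ≤ fa.sts [0] := fun x hx b hb hn => by
    obtain rfl := List.mem_singleton.1 hb
    have := fa.fix_norm hx hn (fun y hy => fa.fix_pow hn ((fa.run atS i hn).trans (by decide +kernel)) hy) (mem_zpowers _)
    rw [fa.run atS i (fa.lt x 0 hn)] at this
    exact beq_iff.1 ((bor_iff.1 (x13_fix _ (fa.lt x 0 hn))).resolve_right fun e => bne_iff.1 e this)
  intro d
  have := d.trans (card_dvd_of_le this)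
  rw [st1.1, st1.2] at this
  omega

end CA.PM.Sz

theorem CA.PM.realizeEqnsS5 : True := by
  have := @CA.PM.Sz.Q0.eq_1
  have := @CA.PM.Sz.Q0.eq_def
  have := @CA.PM.Sz.Q0.congr_simp
  have := @CA.PM.Sz.I.eq_1
  have := @CA.PM.Sz.I.eq_def
  have := @CA.PM.Sz.I.congr_simp
  have := @CA.PM.Sz.u0.eq_1
  have := @CA.PM.Sz.u0.eq_def
  have := @CA.PM.Sz.u0.congr_simp
  have := @CA.PM.Sz.lS.eq_1
  have := @CA.PM.Sz.lS.eq_def
  have := @CA.PM.Sz.lS.congr_simp
  have := @CA.PM.Sz.lH.eq_1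
  have := @CA.PM.Sz.lH.eq_def
  have := @CA.PM.Sz.lH.congr_simp
  have := @CA.PM.Sz.Qs.eq_1
  have := @CA.PM.Sz.Qs.eq_def
  have := @CA.PM.Sz.Qs.congr_simp
  trivial
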