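/-
The model `PΩ₆⁻(3)` of the groups of type `U₄(3)`.
-/
import Cfsg.Agent.PM.U0
import Cfsg.Agent.M24.O6
import Cfsg.Agent.O3.Witt

set_option autoImplicit false
set_option maxRecDepth 100000

namespace CA.PM.U

open CA.TC CA.PM CA.Fi CA.Typ CA.M24.O6 Subgroup Cfsg Cfsg.Agent.Orth QuadraticMap

noncomputable section

/-- the group -/
abbrev U : Type := commutator (OG Q6) ⧸ center (commutator (OG Q6))

/-- coordinates -/
def pk (a j : ℕ) : ℕ := Nat.land (Nat.shiftRight a (Nat.mul 2 j)) 3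

/-- vectors -/
def dv (a : ℕ) : V6 := fun j => (pk a j : ZMod 3)

/-- scalar product -/
def dt (a b : ℕ) : ℕ :=
  (pk a 0 * pk b 0 + pk a 1 * pk b 1 + pk a 2 * pk b 2 + pk a 3 * pk b 3 + pk a 4 * pk b 4 + pk a 5 * pk b 5) % 3

theorem dt_spec (a b : ℕ) : (dt a b : ZMod 3) = ∑ j, dv a j * dv b j := by
  rw [dt, ZMod.natCast_mod, Fin.sum_univ_six]; push_cast; rfl

/-- a reflection -/
def rf (u a : ℕ) : ℕ := frc (dt a u * dt u u) fun c =>
  (pk a 0 + c * pk u 0) % 3 + 4 * ((pk a 1 + c * pk u 1) % 3) + 16 * ((pk a 2 + c * pk u 2) % 3) +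
  64 * ((pk a 3 + c * pk u 3) % 3) + 256 * ((pk a 4 + c * pk u 4) % 3) + 1024 * ((pk a 5 + c * pk u 5) % 3)

def rfChk (u a b : ℕ) : Bool := frc (dt a u * dt u u) fun c =>
  allLt 6 fun j => Nat.beq ((pk a j + c * pk u j) % 3) (pk b j % 3)

theorem rfChk_spec {u a b : ℕ} (h : rfChk u a b = true) : (refl Q6 (dv u)).1 (dv a) = dv b := by
  funext j
  unfold rfChk at h
  rw [frc_eq] at h
  have := (ZMod.natCast_eq_natCast_iff' _ _ 3).2 (beq_iff.1 (allLt_spec h j j.2))
  push_cast at this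
  rw [dt_spec, dt_spec] at this
  rw [refl_apply, polar_Q6, Q6_apply, Pi.sub_apply, Pi.smul_apply, smul_eq_mul]
  have k : ∀ x y : ZMod 3, x / y = x * y := by decide +kernel
  rw [k]
  show (pk a j : ZMod 3) - _ * (pk u j : ZMod 3) = (pk b j : ZMod 3)
  rw [← this]; ring

def pmChk (a b : ℕ) : Bool :=
  bor (allLt 6 fun j => Nat.beq (pk a j % 3) (pk b j % 3)) (allLt 6 fun j => Nat.beq ((pk a j + pk b j) % 3) (0 % 3))

theorem pmChk_spec {a b : ℕ} (h : pmChk a b = true) : dv a = dv b ∨ dv a = -dv b := by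
  refine (bor_iff.1 h).imp (fun h => funext fun j => ?_) fun h => funext fun j => ?_
  · exact (ZMod.natCast_eq_natCast_iff' _ _ 3).2 (beq_iff.1 (allLt_spec h j j.2))
  · have := (ZMod.natCast_eq_natCast_iff' _ _ 3).2 (beq_iff.1 (allLt_spec h j j.2))
    push_cast at this
    exact eq_neg_of_add_eq_zero_left this

/-- lifts of the letters -/
def lg (g : ℕ) : OG Q6 := refl Q6 (dv (ut g)) * refl Q6 (dv (wt g))

theorem refl_mem {u v : V6} (h : Q6 u = Q6 v) : refl Q6 u * refl Q6 v ∈ commutator (OG Q6) := by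
  by_cases hu : Q6 u = 0
  · have h1 : ∀ w, Q6 w = 0 → refl Q6 w = 1 := fun w hw => OG.ext fun x => by simp [refl_apply, hw, OG.one_apply]
    rw [h1 u hu, h1 v (h ▸ hu), mul_one]; exact one_mem _
  · obtain ⟨g, hg, -⟩ := CA.O3.exists_map_nonsing (by decide) hu h
    rw [← hg, ← refl_conj]
    have := commutator_mem_commutator (mem_top (refl Q6 u)) (mem_top g)
    rwa [commutatorElement_def, refl_inv, mul_assoc, mul_assoc, ← mul_assoc g] at this

open Classical in
/-- the letters -/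
def γ (g : ℕ) : U := if h : lg g ∈ commutator (OG Q6) then QuotientGroup.mk ⟨lg g, h⟩ else 1

theorem chk1 : allS ALL (fun g => band (Nat.beq (dt (ut g) (ut g)) (dt (wt g) (wt g)))
    (Nat.beq (dt (wt g) (ut g)) 0)) = true := by decide +kernel

theorem lg_mem {g : ℕ} (hg : tb ALL g = true) : lg g ∈ commutator (OG Q6) := refl_mem (by
  rw [Q6_apply, Q6_apply, ← dt_spec, ← dt_spec, beq_iff.1 (band_iff.1 (allS_spec (by decide) chk1 hg)).1])

theorem γ_eq {g : ℕ} (hg : tb ALL g = true) : γ g = QuotientGroup.mk ⟨lg g, lg_mem hg⟩ := dif_pos _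

theorem sqγ : Sq γ ALL := fun g hg => by
  have h : polar Q6 (dv (wt g)) (dv (ut g)) = 0 := by
    rw [polar_Q6, ← dt_spec, beq_iff.1 (band_iff.1 (allS_spec (by decide) chk1 hg)).2]; simp
  have e := refl_conj (refl Q6 (dv (ut g))) (dv (wt g))
  rw [refl_apply_of_orth h, refl_inv] at e
  rw [γ_eq hg, ← QuotientGroup.mk_mul]
  refine congrArg _ (Subtype.ext (show lg g * lg g = 1 from ?_))
  rw [lg, ← mul_assoc, e, refl_mul_self]

theorem chk2 : rng (fun p => allS ALL fun g => frc (vt (act g p)) fun a => frc (rf (wt g) a) fun b =>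
    frc (rf (ut g) b) fun c => band (rfChk (wt g) a b) (band (rfChk (ut g) b c) (pmChk c (vt p)))) 0 126 1 = true := by
  decide +kernel

theorem lg_act {g p : ℕ} (hg : tb ALL g = true) (hp : p < 126) :
    (lg g).1 (dv (vt (act g p))) = dv (vt p) ∨ (lg g).1 (dv (vt (act g p))) = -dv (vt p) := by
  have := allS_spec (by decide) (rng_spec chk2 p (Nat.zero_le _) hp) hg
  rw [frc_eq, frc_eq, frc_eq, band_iff, band_iff] at this
  rw [lg, OG.mul_apply, rfChk_spec this.1, rfChk_spec this.2.1]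
  exact pmChk_spec this.2.2

theorem chk3 : rng (fun p => band (Nat.beq (iv (enc3 (dv (vt p)))) p) (Nat.beq (iv (enc3 (-dv (vt p)))) p))
    0 126 1 = true := by decide +kernel

theorem mem_Z' {g : commutator (OG Q6)} : g ∈ center (commutator (OG Q6)) ↔ g.1 = 1 ∨ g.1 = negOne Q6 := by
  obtain ⟨e, f, h⟩ := nondeg.exists_HP_of_finite (by simp)
  revert g
  rw [comm_eq]
  exact fun {g} => mem_center_EE nondeg (by simp) h

/-- the relation between points -/
def R (x : U) (p q : ℕ) : Prop := ∃ g : commutator (OG Q6), (g : U) = x ∧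
  (g.1.1 (dv (vt q)) = dv (vt p) ∨ g.1.1 (dv (vt q)) = -dv (vt p))

theorem tbl : Tb ALL 126 act := Tb.of_chk (by decide) tbc

theorem R_step (x : U) (g p q : ℕ) (hg : tb ALL g = true) (hp : p < 126) : R x (act g p) q → R (γ g * x) p q := by
  rintro ⟨k, rfl, e⟩
  refine ⟨⟨lg g, lg_mem hg⟩ * k, by rw [γ_eq hg]; rfl, ?_⟩
  show ((lg g) * k.1).1 _ = _ ∨ ((lg g) * k.1).1 _ = _
  rw [OG.mul_apply]
  rcases e with e | e <;> rw [e] <;> rcases lg_act hg hp with f | f <;> simp [f]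

theorem R_wd {w : List ℕ} (hw : inS ALL w = true) {p : ℕ} (hp : p < 126) : R (wd γ w) p (run act w p) := by
  induction w generalizing p with
  | nil => exact ⟨1, rfl, Or.inl rfl⟩
  | cons g w ih =>
    rw [inS_cons] at hw
    rw [wd_cons, run_cons]
    exact R_step _ _ _ _ hw.1 hp (ih hw.2 (tbl.lt g hw.1 p hp))

theorem mod : Mod γ ALL 126 act := Mod.of_rel tbl sqγ R (fun _ _ => ⟨1, rfl, Or.inl rfl⟩) R_step (by
  rintro p hp q hq ⟨g, e, h⟩
  have k := fun p hp => band_iff.1 (rng_spec chk3 p (Nat.zero_le _) hp)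
  have k2 : dv (vt q) = dv (vt p) ∨ dv (vt q) = -dv (vt p) := by
    rcases mem_Z'.1 ((QuotientGroup.eq_one_iff g).1 e) with r | r <;> rw [r] at h
    · exact h
    · rw [negOne_apply] at h
      exact h.symm.imp (fun h => neg_injective h) fun h => neg_eq_iff_eq_neg.1 h
  rw [← beq_iff.1 (k q hq).1]
  rcases k2 with r | r <;> rw [r]
  exacts [beq_iff.1 (k p hp).1, beq_iff.1 (k p hp).2])

theorem ltB : ∀ b ∈ B, b < 126 := C1_sep.lt

theorem sgn {x : U} {p : ℕ} (g : commutator (OG Q6)) (hg : (g : U) = x) (h : R x p p) :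
    ∃ ε : ZMod 3, (ε = 1 ∨ ε = -1) ∧ g.1.1 (dv (vt p)) = ε • dv (vt p) := by
  obtain ⟨k, e, h⟩ := h
  have := mem_Z'.1 (QuotientGroup.eq.1 (e.trans hg.symm))
  have e2 : g.1 = k.1 ∨ g.1 = k.1 * negOne Q6 := this.imp (fun r => (inv_mul_eq_one.1 r).symm)
    fun r => by rw [← r]; simp
  rcases e2 with r | r <;> rcases h with h | h <;> rw [r]
  · exact ⟨1, Or.inl rfl, by simp [h]⟩
  · exact ⟨-1, Or.inr rfl, by simp [h]⟩
  · exact ⟨-1, Or.inr rfl, by simp [OG.mul_apply, negOne_apply, h]⟩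
  · exact ⟨1, Or.inl rfl, by simp [OG.mul_apply, negOne_apply, h]⟩

theorem B_eq : B = [0, 1, 2, 12, 4, 94] := rfl

theorem rel : Rel γ act ALL B := fun w hw hf => by
  obtain ⟨g, hg⟩ := QuotientGroup.mk_surjective (wd γ w)
  have k : ∀ b ∈ B, ∃ ε : ZMod 3, (ε = 1 ∨ ε = -1) ∧ g.1.1 (dv (vt b)) = ε • dv (vt b) := fun b hb =>
    sgn g hg (by have := R_wd hw (ltB b hb); rwa [fixB_iff.1 hf b hb] at this)
  choose! ε h1 h2 using k
  have k2 : ∀ b ∈ B, ∀ c ∈ B, polar Q6 (dv (vt b)) (dv (vt c)) ≠ 0 → ε b = ε c := fun b hb c hc h => by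
    have := OG.map_polar g.1 (dv (vt b)) (dv (vt c))
    rw [h2 b hb, h2 c hc, polar_smul_left, polar_smul_right, smul_eq_mul, smul_eq_mul] at this
    revert this h
    generalize polar Q6 (dv (vt b)) (dv (vt c)) = t
    rcases h1 b hb with e | e <;> rcases h1 c hc with f | f <;> rw [e, f] <;> revert t <;> decide
  have m : ∀ b ∈ [0, 1, 2, 12, 4, 94], b ∈ B := fun b hb => hb
  have p1 : ∀ b ∈ [0, 1, 2], polar Q6 (dv (vt b)) (dv (vt 4)) ≠ 0 := by
    simp only [polar_Q6, ← dt_spec]; decide +kernel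
  have p2 : ∀ b ∈ [2, 12], polar Q6 (dv (vt b)) (dv (vt 94)) ≠ 0 := by
    simp only [polar_Q6, ← dt_spec]; decide +kernel
  have e0 := k2 0 (m _ (by simp)) 4 (m _ (by simp)) (p1 _ (by simp))
  have e1 := k2 1 (m _ (by simp)) 4 (m _ (by simp)) (p1 _ (by simp))
  have e2 := k2 2 (m _ (by simp)) 4 (m _ (by simp)) (p1 _ (by simp))
  have e3 := k2 2 (m _ (by simp)) 94 (m _ (by simp)) (p2 _ (by simp))
  have e4 := k2 12 (m _ (by simp)) 94 (m _ (by simp)) (p2 _ (by simp))
  have d : ∀ x : V6, x = (x 0 - x 3 + x 5) • dv (vt 0) + (x 1 - x 3 + x 5) • dv (vt 1) + (x 2 - x 3) • dv (vt 2) +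
      (x 4 - x 5) • dv (vt 12) + (x 3 - x 5) • dv (vt 4) + x 5 • dv (vt 94) := fun x => by
    have v0 : dv (vt 0) = ![1, 0, 0, 0, 0, 0] := by decide +kernel
    have v1 : dv (vt 1) = ![0, 1, 0, 0, 0, 0] := by decide +kernel
    have v2 : dv (vt 2) = ![0, 0, 1, 0, 0, 0] := by decide +kernel
    have v3 : dv (vt 12) = ![0, 0, 0, 0, 1, 0] := by decide +kernel
    have v4 : dv (vt 4) = ![1, 1, 1, 1, 0, 0] := by decide +kernel
    have v5 : dv (vt 94) = ![0, 0, 1, 1, 1, 1] := by decide +kernel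
    rw [v0, v1, v2, v3, v4, v5]
    funext j
    fin_cases j <;> simp
  have f : ∀ x, g.1.1 x = ε 4 • x := fun x => by
    conv_lhs => rw [d x]
    conv_rhs => rw [d x]
    simp only [map_add, map_smul, h2 0 (m _ (by simp)), h2 1 (m _ (by simp)), h2 2 (m _ (by simp)),
      h2 12 (m _ (by simp)), h2 4 (m _ (by simp)), h2 94 (m _ (by simp)), e0, e1, e4, ← e3, e2, smul_add,
      smul_comm (ε 4)]
  rw [← hg, QuotientGroup.eq_one_iff, mem_Z']
  exact (h1 4 (m _ (by simp))).imp (fun e => OG.ext fun x => by rw [f, e, one_smul]; rfl)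
    fun e => OG.ext fun x => by rw [f, e, negOne_apply, neg_smul, one_smul]

theorem bm : BM γ ALL 126 act B := ⟨mod, rel, ltB⟩

theorem simple : IsSimpleGroup U := nondeg.isQuasisimple_EE five_le |> fun h => by
  have := h.2
  rwa [← comm_eq] at this

theorem equiv (K : Type) [Field K] [Fintype K] (hK : Fintype.card K = 9) : Nonempty (U ≃* PSU 4 K 3) := by
  haveI := fact9
  obtain ⟨e1⟩ := Cfsg.Agent.Unit.nonempty_POmega_six_minus (F := ZMod 3) (a := -1) (b := 0)
  rw [ZMod.card] at e1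
  letI : Fintype K9 := Fintype.ofEquiv _ (QuadraticAlgebra.equivProd (-1 : ZMod 3) 0).symm
  have c : Fintype.card K9 = Fintype.card K := by
    rw [hK, Fintype.card_eq_nat_card, Cfsg.Agent.Unit.card_QA]; simp
  exact ⟨((Cfsg.Agent.Lin.quotCenterCongr (Cfsg.Agent.Lin.commutatorCongr (OG.congr phi phi_Q))).trans e1).trans
    (Cfsg.Agent.Lin.quotCenterCongr (Cfsg.Agent.Unit.suCongr (FiniteField.ringEquivOfCardEq c) 4 3))⟩

theorem card_U : Nat.card U = 3265920 := by
  have h := card_eq_card_quotient_mul_card_subgroup (center (commutator (OG Q6)))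
  have e : center (commutator (OG Q6)) = (zpowers (negOne Q6)).subgroupOf _ := by
    ext g; rw [mem_Z', mem_subgroupOf, mem_Z]
  rw [card_comm, e, Nat.card_congr (subgroupOfEquivOfLe (zpowers_le.2 negOne_mem)).toEquiv, Nat.card_zpowers,
    orderOf_negOne, ← e] at h
  show Nat.card (_ ⧸ _) = _
  omega

instance finU : Finite U := Nat.finite_of_card_ne_zero (by rw [card_U]; decide)

theorem rm : RM γ ALL 126 act B := bm.rm

theorem rmS {S : ℕ} (h : sub S ALL = true) : RM γ S 126 act B := rm.mono h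

theorem wd1 (g : ℕ) : wd γ [g] = γ g := wd_one γ g

theorem H_comm {g : ℕ} (hg : tb SH g = true) : γ g ∈ centralizer ({γ 1} : Set U) := by
  have := rm.comm (allS_spec (by decide) (show allS SH (fun g => eqW act ALL B [[g], [1]] [[1], [g]]) = true by
    decide +kernel) hg)
  rw [wd1, wd1] at this
  exact mem_cent_iff.2 this

theorem class_le (D : Subgroup U) (hD : ∀ g, tb ALL g = true → γ g ∈ D) :
    2835 * Nat.card (D ⊓ centralizer ({γ 1} : Set U) : Subgroup U) ≤ Nat.card D := by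
  have := mod.class_ge' ltB (sub_refl _) (z := [1]) hD inC enC
  rwa [wd1] at this

theorem le_H {K : Subgroup U} (hK : ∀ g, tb SH g = true → γ g ∈ K) : 1152 ≤ Nat.card K :=
  mod.le_card_en ltB (by decide +kernel) enH hK

theorem card_H : Nat.card (centralizer ({γ 1} : Set U)) = 1152 := by
  have h := class_le ⊤ fun _ _ => mem_top _
  rw [top_inf_eq, card_top, card_U] at h
  have := le_H fun _ => H_comm
  omega

theorem gp_top : gp γ ALL = ⊤ := by
  have h := class_le (gp γ ALL) fun _ => mem_gp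
  have := le_H (K := gp γ ALL ⊓ centralizer {γ 1}) fun g hg => ⟨mem_gp (tb_sub (by decide +kernel) hg), H_comm hg⟩
  exact eq_top_of_le_card _ (by rw [card_U]; omega)

theorem enum_H {x : U} (hx : Commute x (γ 1)) : ∃ i < 1152, inS SH (WH i) = true ∧ wd γ (WH i) = x :=
  mod.enum ltB (by decide +kernel) enH (fun _ => H_comm) card_H.le (mem_cent_iff.2 hx)

theorem mem_gp_H {x : U} (hx : Commute x (γ 1)) : x ∈ gp γ SH := by
  obtain ⟨i, -, h, rfl⟩ := enum_H hx
  exact wd_mem_gp h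

theorem enum_Q {x : U} (hx : x ∈ gp γ SQ) : ∃ i < 32, inS SQ (WQ i) = true ∧ wd γ (WQ i) = x :=
  (rmS (by decide +kernel)).rel.enum (rmS (by decide +kernel)).tbl (rmS (by decide +kernel)).sq ltB (by decide)
    (i0 := 16) (by decide) (by decide +kernel) clQ hx

theorem card_Q : Nat.card (gp γ SQ) = 32 :=
  le_antisymm (card_le_of_enum (F := fun i => wd γ (WQ i)) fun x hx => by
    obtain ⟨i, h1, -, h2⟩ := enum_Q hx; exact ⟨i, h1, h2⟩).2
    (mod.le_card_en ltB (by decide +kernel) enQ fun _ => mem_gp)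

theorem Q_le : gp γ SQ ≤ centralizer {γ 1} := gp_le fun g hg => H_comm (tb_sub (by decide +kernel) hg)

theorem hQ : rng (fun i => bor (anyS SQ fun q => neW act ALL B [[q], WH i] [WH i, [q]])
    (bor (eqW act ALL B [WH i] []) (eqW act ALL B [WH i] [[1]]))) 0 1152 5 = true := by decide +kernel

theorem cent_Q {x : U} (hz : Commute x (γ 1)) (hx : ∀ g, tb SQ g = true → Commute (γ g) x) : x = 1 ∨ x = γ 1 := by
  obtain ⟨i, hi, -, rfl⟩ := enum_H hz
  rcases bor_iff.1 (rng_spec hQ i (Nat.zero_le _) hi) with h | h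
  · obtain ⟨q, h1, h2⟩ := anyS_spec h
    exact absurd (wd1 q ▸ hx q h1) (bm.ncomm h2)
  · exact (bor_iff.1 h).imp rm.one fun h => (rm.eq1 h).trans (wd1 1)

theorem z_mem : γ 1 ∈ gp γ SQ := by
  rw [← wd1, rm.eq1 (v := [2, 6, 2, 6]) (by decide +kernel)]
  exact wd_mem_gp (by decide +kernel)

theorem ne1 {g : ℕ} (h : neW act ALL B [[g]] [[]] = true) : γ g ≠ 1 := wd1 g ▸ bm.ne1 h

theorem es : ES (gp γ SQ) (γ 1) := by
  refine es_of_gens z_mem (ne1 (by decide +kernel)) (sqγ 1 (by decide +kernel))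
    (fun g hg => mem_cent_iff.1 (Q_le (mem_gp hg))) (fun g hg k hk => ?_)
    (fun x hx => cent_Q (mem_cent_iff.1 (Q_le hx))) ⟨γ 2, mem_gp (by decide +kernel), ne1 (by decide +kernel), ?_⟩
  · have := allS_spec (by decide) (allS_spec (by decide) (show allS SQ (fun g => allS SQ fun k =>
      bor (eqW act ALL B [[g], [k]] [[k], [g]]) (eqW act ALL B [[g], [k]] [[k], [g], [1]])) = true by
      decide +kernel) hg) hk
    exact (bor_iff.1 this).imp (fun h => by simpa using rm.comm h) fun h => by simpa [mul_assoc] using rm.eq h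
  · simpa using bm.ne1 (u := [2]) (v := [1]) (by decide +kernel)

theorem norm_of {S T : ℕ} (hS : S < 65536) (hT : T < 65536) {c : ℕ → ℕ → List ℕ}
    (h : allS S (fun g => allS T fun q => band (eqW act ALL B [[g], [q]] [c g q, [g]]) (inS T (c g q))) = true)
    {g : ℕ} (hg : tb S g = true) : γ g ∈ normalizer (gp γ T : Set U) := conj_mem_gp fun q hq => by
  have := band_iff.1 (allS_spec hT (allS_spec hS h hg) hq)
  have e := rm.conj this.1
  rw [wd1, wd1] at e
  exact e ▸ wd_mem_gp this.2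

theorem le : LE (gp γ SQ) (γ 1) := ⟨es, fun c hc => by
    rcases cent_Q (hc _ z_mem) fun g hg => (hc _ (mem_gp hg)).symm with e | e <;> rw [e]
    exacts [one_mem _, z_mem],
  fun c hc x hx => (mem_normalizer_iff.1 (gp_le (K := normalizer (gp γ SQ : Set U))
    (fun g => norm_of (c := cq) (by decide) (by decide) (by decide +kernel)) (mem_gp_H hc)) x).1 hx⟩

/-- the conjugating element -/
def g0 : U := wd γ [6, 9]

theorem g0_z : g0 * γ 1 * g0⁻¹ = γ 2 := by
  simpa [g0] using rm.conj (u := [6, 9]) (z := [1]) (y := [2]) (by decide +kernel)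

/-- the second extraspecial group -/
def Qs : Subgroup U := (gp γ SQ).map (MulAut.conj g0).toMonoidHom

theorem th : TH (gp γ SQ) Qs (γ 1) (γ 2) 32 36 := by
  have := TH_mk (g := g0) (N := 36) le card_Q (by decide) card_H
    (by rw [g0_z]; exact mem_gp (by decide +kernel))
    (by rw [g0_z]; simpa using bm.ne1 (u := [2]) (v := [1]) (by decide +kernel))
  rwa [g0_z] at this

theorem hE : ∀ e ∈ gp γ SQ, e ∈ Qs → e = 1 ∨ e = γ 1 ∨ e = γ 2 ∨ e = γ 2 * γ 1 := by
  rintro e he ⟨y, hy, hey⟩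
  obtain ⟨i, hi, -, rfl⟩ := enum_Q he
  obtain ⟨j, hj, -, rfl⟩ := enum_Q hy
  have := allLt_spec (allLt_spec (show allLt 32 (fun i => allLt 32 fun j => bor (neW act ALL B [[6, 9], WQ j]
    [WQ i, [6, 9]]) (bor (eqW act ALL B [WQ i] []) (bor (eqW act ALL B [WQ i] [[1]]) (bor (eqW act ALL B [WQ i] [[2]])
    (eqW act ALL B [WQ i] [[2, 1]]))))) = true by decide +kernel) i hi) j hj
  simp only [bor_iff] at this
  rcases this with h | h | h | h | h
  · refine absurd ?_ (bm.ne h)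
    rw [wds_cons, wds_cons, wds_cons, wds_cons, ← hey]
    simp [g0, mul_assoc]
  exacts [Or.inl (rm.one h), Or.inr (Or.inl (by simpa using rm.eq1 h)), Or.inr (Or.inr (Or.inl (by simpa using rm.eq1 h))),
    Or.inr (Or.inr (Or.inr (by simpa using rm.eq1 h)))]

theorem tp : Tp (gp γ SQ) Qs (γ 1) (γ 2) := ⟨th.toPair, hE⟩

theorem P_mem {g : ℕ} (hg : tb SP g = true) :
    γ g ∈ normalizer ((closure ({γ 1, γ 2} : Set U) : Subgroup U) : Set U) := by
  have e : closure ({γ 1, γ 2} : Set U) = gp γ 6 := by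
    unfold gp; congr 1; ext x
    constructor
    · rintro (rfl | rfl)
      exacts [⟨1, by decide +kernel, rfl⟩, ⟨2, by decide +kernel, rfl⟩]
    · rintro ⟨g, hg, rfl⟩
      have := lt16 (by decide) hg
      have k : g = 1 ∨ g = 2 := by revert hg; revert g; decide +kernel
      rcases k with rfl | rfl <;> simp
  rw [e]
  exact norm_of (c := c1) (by decide) (by decide) (by decide +kernel) hg

theorem hP : rng (fun i => bor (neW act ALL B [WH i, [2]] [[2], WH i]) (inS SP (WH i))) 0 1152 5 = true := by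
  decide +kernel

theorem P_le : normalizer ((closure ({γ 1, γ 2} : Set U) : Subgroup U) : Set U) ≤ gp γ SP := by
  refine tp.norm_le (q := γ 6) (u := γ 9) (mem_gp (by decide +kernel))
    (by simpa using bm.ncomm (u := [6]) (v := [2]) (by decide +kernel))
    ⟨γ 6, mem_gp (by decide +kernel), by
      simpa [g0, mul_assoc] using rm.conj (u := [6, 9]) (z := [6]) (y := [9]) (by decide +kernel)⟩
    (by simpa using bm.ncomm (u := [9]) (v := [1]) (by decide +kernel))
    (mem_gp (by decide +kernel)) (mem_gp (by decide +kernel)) fun k h1 h2 => ?_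
  obtain ⟨i, hi, -, rfl⟩ := enum_H h1
  rcases bor_iff.1 (rng_spec hP i (Nat.zero_le _) hi) with h | h
  exacts [absurd (wd1 2 ▸ h2) (bm.ncomm h), wd_mem_gp h]

theorem hC : rng (fun i => bor (neW act ALL B [WH i, WH i] []) (bor (eqW act ALL B [WH i] [])
    (eqW act ALL B [cw i, [1]] [WH i, cw i]))) 0 1152 5 = true := by decide +kernel

theorem one_class {x : U} (h2 : x * x = 1) (h1 : x ≠ 1) : IsConj (γ 1) x := by
  obtain ⟨g, hg⟩ := conj_into le (isP_zpowers (p := 2) (k := 1) (x := x) (by simpa [pow_two] using h2))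
  obtain ⟨i, hi, -, e⟩ := enum_H (hg x (mem_zpowers x))
  have := rng_spec hC i (Nat.zero_le _) hi
  simp only [bor_iff] at this
  rcases this with h | h | h
  · refine absurd ?_ (bm.ne h)
    rw [wds_cons, wds_cons, wds_nil, mul_one, e]
    calc _ = g⁻¹ * (x * x) * g := by group
      _ = 1 := by rw [h2]; group
  · rw [rm.one h] at e
    exact absurd (by calc x = g * (g⁻¹ * x * g) * g⁻¹ := by group
      _ = 1 := by rw [← e]; group) h1
  · have := rm.conj h
    rw [e, wd1] at this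
    exact isConj_iff.2 ⟨g * wd γ (cw i), by rw [mul_inv_rev, mul_assoc g, mul_assoc g, ← mul_assoc _ _ g⁻¹, this]; group⟩

/-- the facts on the two elementary abelian groups of order 16 -/
def aChk (S : ℕ) (u v : List ℕ) (i : ℕ) : Bool :=
  bor (anyS S fun q => neW act ALL B [[q], WH i] [WH i, [q]]) (band (inS S (WH i)) (bor (eqW act ALL B [WH i] [])
    (band (neW act ALL B [u, WH i] [WH i, u]) (neW act ALL B [v, WH i] [WH i, v]))))

theorem aChk_spec {S : ℕ} {u v : List ℕ} (h : rng (aChk S u v) 0 1152 5 = true) {x : U} (hz : Commute x (γ 1))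
    (hx : ∀ g, tb S g = true → Commute (γ g) x) :
    x ∈ gp γ S ∧ (Commute (wd γ u) x ∨ Commute (wd γ v) x → x = 1) := by
  obtain ⟨i, hi, -, rfl⟩ := enum_H hz
  rcases bor_iff.1 (rng_spec h i (Nat.zero_le _) hi) with h | h
  · obtain ⟨q, h1, h2⟩ := anyS_spec h
    exact absurd (wd1 q ▸ hx q h1) (bm.ncomm h2)
  · rw [band_iff, bor_iff, band_iff] at h
    exact ⟨wd_mem_gp h.1, fun e => h.2.elim rm.one fun k => e.elim (absurd · (bm.ncomm k.1)) (absurd · (bm.ncomm k.2))⟩

theorem hA1 : rng (aChk SA1 [7, 9] [6, 7, 9, 7, 9]) 0 1152 5 = true := by decide +kernel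
theorem hA2 : rng (aChk SA2 [8, 9] [3, 8, 9, 8, 9]) 0 1152 5 = true := by decide +kernel
theorem nA1 {g : ℕ} (hg : tb SN1 g = true) : γ g ∈ normalizer (gp γ SA1 : Set U) :=
  norm_of (c := c1) (by decide) (by decide) (by decide +kernel) hg
theorem nA2 {g : ℕ} (hg : tb SN2 g = true) : γ g ∈ normalizer (gp γ SA2 : Set U) :=
  norm_of (c := c2) (by decide) (by decide) (by decide +kernel) hg

theorem hF : rng (fun i => bor (neW act ALL B [WH i, WH i] []) (bor (neW act ALL B [WH i, [7, 5]] [[7, 5], WH i])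
    (bor (eqW act SH B [WH i] []) (bor (eqW act SH B [WH i] [[1]])
    (anyLt 3 fun j => bor (eqW act SH B [WH i] ([10, 1] :: List.replicate j [8, 10]))
      (eqW act SH B [WH i] ([10] :: List.replicate j [8, 10]))))))) 0 1152 5 = true := by decide +kernel

theorem hG : rng (fun i => bor (eqW act SH B [WH i, WH i, [7, 5]] [[7, 5], WH i, WH i])
    (anyL [[7, 5], [8, 10]] fun u => anyL [[7, 5], [8, 10]] fun v =>
      neW act ALL B [WH i, u, rv (WH i), v] [v, WH i, u, rv (WH i)])) 0 1152 5 = true := by decide +kernel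

end

end CA.PM.U

theorem CA.PM.realizeEqnsU1 : True := by
  have := @CA.PM.U.dv.eq_1
  have := @CA.PM.U.dv.eq_def
  have := @CA.PM.U.dv.congr_simp
  have := @CA.PM.U.g0.eq_1
  have := @CA.PM.U.g0.eq_def
  have := @CA.PM.U.g0.congr_simp
  have := @CA.PM.U.aChk.eq_1
  have := @CA.PM.U.aChk.eq_def
  have := @CA.PM.U.aChk.congr_simp
  have := @CA.PM.U.lg.eq_1
  have := @CA.PM.U.lg.eq_def
  have := @CA.PM.U.lg.congr_simp
  have := @CA.PM.U.pmChk.eq_1
  have := @CA.PM.U.pmChk.eq_def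
  have := @CA.PM.U.pmChk.congr_simp
  have := @CA.PM.U.pk.eq_1
  have := @CA.PM.U.pk.eq_def
  have := @CA.PM.U.pk.congr_simp
  have := @CA.PM.U.rf.eq_1
  have := @CA.PM.U.rf.eq_def
  have := @CA.PM.U.rf.congr_simp
  have := @CA.PM.U.Qs.eq_1
  have := @CA.PM.U.Qs.eq_def
  have := @CA.PM.U.Qs.congr_simp
  have := @CA.PM.U.γ.eq_1
  have := @CA.PM.U.γ.eq_def
  have := @CA.PM.U.γ.congr_simp
  have := @CA.PM.U.U.eq_1
  have := @CA.PM.U.U.eq_def
  have := @CA.PM.U.U.congr_simp
  have := @CA.PM.U.dt.eq_1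
  have := @CA.PM.U.dt.eq_def
  have := @CA.PM.U.dt.congr_simp
  have := @CA.PM.U.rfChk.eq_1
  have := @CA.PM.U.rfChk.eq_def
  have := @CA.PM.U.rfChk.congr_simp
  have := @CA.PM.U.R.eq_1
  have := @CA.PM.U.R.eq_def
  have := @CA.PM.U.R.congr_simp
  trivial
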